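import Cfsg.Agent.H18.MaxOff
import Cfsg.Agent.H48.Words
import Cfsg.Agent.H49.Large
import Cfsg.Prelude.Def_JankoFourType
import Cfsg.Prelude.Def_Sporadic
import Cfsg.Prelude.Def_Spor_Conway

/-! Project RF: groups with a 2-local subgroup of shape `2^11.M24`.  Data and chapters. -/

set_option autoImplicit false

namespace Cfsg.Agent.H18.Rf

open Cfsg Subgroup Cfsg.Agent.H18.MaxOff
open Cfsg.Agent.H48 (IsWord)
open Cfsg.Agent.H49 (XS LX)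
open scoped symmDiff Pointwise

universe u

section Data

variable {G : Type u} [Group G]

/-- the normalizer -/
abbrev NN (A : Subgroup G) : Subgroup G := normalizer (A : Set G)

/-- the centralizer of a subgroup -/
abbrev CC (A : Subgroup G) : Subgroup G := centralizer (A : Set G)

/-- the centralizer of an element -/
abbrev C1 (z : G) : Subgroup G := centralizer ({z} : Set G)

/-- the stabilizer of `z` in the normalizer of `V` -/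
abbrev MM (V : Subgroup G) (z : G) : Subgroup G := NN V ⊓ C1 z

/-- the group generated by two elements -/
abbrev UU (z w : G) : Subgroup G := closure ({z, w} : Set G)

/-- the elements normalizing `U` and centralizing `S` modulo `U` -/
def CM (S : Set G) (U : Subgroup G) : Subgroup G where
  carrier := {g | g ∈ NN U ∧ ∀ x ∈ S, g * x * g⁻¹ * x⁻¹ ∈ U}
  one_mem' := ⟨one_mem _, fun x _ => by simp⟩
  mul_mem' := by
    rintro g h ⟨g1, g2⟩ ⟨h1, h2⟩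
    refine ⟨mul_mem g1 h1, fun x hx => ?_⟩
    have := U.mul_mem ((mem_normalizer_iff.1 g1 _).1 (h2 x hx)) (g2 x hx)
    simpa [mul_assoc] using this
  inv_mem' := by
    rintro g ⟨g1, g2⟩
    refine ⟨inv_mem g1, fun x hx => ?_⟩
    have := (mem_normalizer_iff''.1 g1 _).1 (U.inv_mem (g2 x hx))
    simpa [mul_assoc] using this

theorem mem_CM {S : Set G} {U : Subgroup G} {g : G} :
    g ∈ CM S U ↔ g ∈ NN U ∧ ∀ x ∈ S, g * x * g⁻¹ * x⁻¹ ∈ U := Iff.rfl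

/-- the setting -/
structure St (V : Subgroup G) (ρ : NN V →* M24) : Prop where
  el : ∀ v ∈ V, v * v = 1
  card : Nat.card V = 2 ^ 11
  cen : CC V = V
  sur : Function.Surjective ρ
  ker : ∀ n, ρ n = 1 ↔ (n : G) ∈ V

/-- `V` is the Golay code modulo the all-one word -/
structure Gol (V : Subgroup G) (ρ : NN V →* M24) (ψ : Finset GolayPt → G) : Prop where
  add : ∀ c d, IsWord c → IsWord d → ψ (c ∆ d) = ψ c * ψ d
  mem : ∀ c, IsWord c → ψ c ∈ V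
  sur : ∀ v ∈ V, ∃ c, IsWord c ∧ ψ c = v
  ker : ∀ c, IsWord c → (ψ c = 1 ↔ c = ∅ ∨ c = Finset.univ)
  act : ∀ (n : NN V) c, IsWord c → n * ψ c * (n : G)⁻¹ = ψ (ρ n • c)

/-- `V` is the even cocode -/
structure Tod (V : Subgroup G) (ρ : NN V →* M24) (ψ : Finset GolayPt → G) : Prop where
  add : ∀ c d, Even c.card → Even d.card → ψ (c ∆ d) = ψ c * ψ d
  mem : ∀ c, Even c.card → ψ c ∈ V
  sur : ∀ v ∈ V, ∃ c, Even c.card ∧ ψ c = v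
  ker : ∀ c, Even c.card → (ψ c = 1 ↔ IsWord c)
  act : ∀ (n : NN V) c, Even c.card → n * ψ c * (n : G)⁻¹ = ψ (ρ n • c)

/-- the hypothesis on cores -/
def HO (V : Subgroup G) : Prop := ∀ T : Sylow 2 ↥(NN V), ∀ s : ↥(NN V),
  s ∈ (T : Subgroup ↥(NN V)) → orderOf s = 2 → (∀ y ∈ (T : Subgroup ↥(NN V)), y * s = s * y) →
  pPrimeCore 2 ↥(C1 (s : G)) = ⊥

/-- the facts on `Q` common to both modules -/
structure LC (V : Subgroup G) (z : G) (Q W : Subgroup G) : Prop where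
  xs : XS Q z
  zV : z ∈ V
  qm : Q ≤ MM V z
  mq : MM V z ≤ NN Q
  qv : Q ⊓ V = W
  cw : Q ⊓ CC W = W
  vq : ∀ v ∈ V, ∀ x ∈ Q, v * x * v⁻¹ * x⁻¹ ∈ W
  syl : ∃ m, Odd m ∧ Nat.card (MM V z) = 2 ^ 21 * m
  nv : ∃ m, Odd m ∧ Nat.card (NN V) = 2 ^ 21 * m
  cq : MM V z ⊓ CM Q (zpowers z) ≤ Q
  sub : ∀ B : Subgroup G, z ∈ B → B ≤ Q → MM V z ≤ NN B → B = zpowers z ∨ B = W ∨ B = Q
  nw : NN V ⊓ CC W ≤ V
  big : 16 * Nat.card W ≤ Nat.card V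
  hyp : ∀ V₀ : Subgroup G, W ≤ V₀ → V₀ ≤ V → Nat.card V = 2 * Nat.card V₀ →
    Q ⊓ CM V₀ (zpowers z) ≤ W
  odd : ∃ k, Nat.card ↥(MM V z ⊓ CM V W) ∣ 3 * 2 ^ k

/-- the group of shape `2^(2+12)` attached to `w` -/
def Ew (V : Subgroup G) (z : G) (Q : Subgroup G) (w : G) : Subgroup G :=
  MM V z ⊓ C1 w ⊓ CM (Q ⊓ C1 w : Subgroup G) (UU z w)

/-- the facts on `Q` for the code module, `z = ψ O` -/
structure LG (V : Subgroup G) (ρ : NN V →* M24) (ψ : Finset GolayPt → G) (O : Finset GolayPt)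
    (Q W : Subgroup G) : Prop where
  cQ : Nat.card Q = 2 ^ 9
  cW : Nat.card W = 2 ^ 5
  mw : ∀ c, IsWord c → (ψ c ∈ W ↔ Disjoint c O ∨ O ⊆ c)
  im : ∀ n : NN V, (n : G) ∈ Q ⊔ V ↔ ∀ p ∈ O, ρ n • p = p
  tv : ∀ y ∈ MM V (ψ O), 2 ^ 8 ≤ Nat.card ↥(Q ⊓ CM {y} (zpowers (ψ O))) → y ∈ Q
  ci : ∀ q ∈ Q, q ∉ W → q * q = 1 → Nat.card ↥(MM V (ψ O) ⊓ C1 q) = 2 ^ 17 * 21
  e4 : ∀ w ∈ W, w ∉ zpowers (ψ O) → ∃ T : Subgroup G, T ≤ MM V (ψ O) ⊓ NN (UU (ψ O) w) ∧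
    Nat.card T = 2 ^ 21
  e5 : ∀ w ∈ W, w ∉ zpowers (ψ O) → Nat.card ↥(V ⊓ Ew V (ψ O) Q w) = 2 ^ 8

/-- the facts on `Q` for the cocode module -/
structure LT (V : Subgroup G) (z : G) (Q W : Subgroup G) (ω : G) : Prop where
  cQ : Nat.card Q = 2 ^ 13
  cW : Nat.card W = 2 ^ 7
  om : ω ∈ MM V z
  o3 : orderOf ω = 3
  fp : Q ⊓ CM {ω} (zpowers z) ≤ zpowers z
  sl : ∀ m ∈ MM V z, m * ω * m⁻¹ * ω⁻¹ ∈ Q ∨ m * ω * m⁻¹ * ω ∈ Q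
  r4 : ∀ y ∈ MM V z, y ∉ Q → y * y ∈ Q → Nat.card ↥(Q ⊓ CM {y} (zpowers z)) ≤ 2 ^ 9
  r5 : ∀ Y : Subgroup G, Q ≤ Y → Y ≤ MM V z → (∀ y ∈ Y, y * y ∈ Q) → Nat.card Y ≤ 2 ^ 18

/-- no other conjugate of `Q` under `C(z)` normalizes `Q` -/
def WQ (Q : Subgroup G) (z : G) : Prop := ∀ c ∈ C1 z, cj c Q ≤ NN Q → cj c Q = Q

/-- strong closure of `Q` in `C(z)` -/
def SQ (Q : Subgroup G) (z : G) : Prop := ∀ c ∈ C1 z, cj c Q ⊓ NN Q ≤ Q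

end Data

/-! ### The chapters -/

/-- MOD -/
def ModStmt : Prop := ∀ (G : Type u) [Group G] [Finite G] (V : Subgroup G) (ρ : NN V →* M24),
  St V ρ → ∃ ψ, Gol V ρ ψ ∨ Tod V ρ ψ

def WcGStmt : Prop := ∀ (G : Type u) [Group G] [Finite G] (V : Subgroup G) (ρ : NN V →* M24) ψ,
  St V ρ → Gol V ρ ψ → WC V

def WcTStmt : Prop := ∀ (G : Type u) [Group G] [Finite G] (V : Subgroup G) (ρ : NN V →* M24) ψ,
  St V ρ → Tod V ρ ψ → WC V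

/-- control of fusion -/
def FcStmt : Prop := ∀ (G : Type u) [Group G] [Finite G] (V : Subgroup G),
  (∀ v ∈ V, v * v = 1) → WC V → ∀ (B : Set G) (g : G), (∀ b ∈ B, b ∈ V ∧ g * b * g⁻¹ ∈ V) →
  ∃ n ∈ NN V, ∀ b ∈ B, g * b * g⁻¹ = n * b * n⁻¹

def OzGStmt : Prop := ∀ (G : Type u) [Group G] [Finite G] (V : Subgroup G) (ρ : NN V →* M24) ψ,
  St V ρ → Gol V ρ ψ → HO V → ∀ O ∈ octads, pPrimeCore 2 ↥(C1 (ψ O)) = ⊥

def OzTStmt : Prop := ∀ (G : Type u) [Group G] [Finite G] (V : Subgroup G) (ρ : NN V →* M24) ψ,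
  St V ρ → Tod V ρ ψ → HO V → ∀ t : Finset GolayPt, t.card = 4 → pPrimeCore 2 ↥(C1 (ψ t)) = ⊥

/-- reduction to simple groups -/
def RedStmt : Prop := ∀ (G : Type u) [Group G] [Finite G] (V : Subgroup G) (ρ : NN V →* M24),
  St V ρ → WC V → (∀ B : Subgroup G, B ≤ V → NN V ≤ NN B → B = ⊥ ∨ B = V) →
  (∃ a ∈ V, ∃ b ∈ V, a ≠ 1 ∧ b ≠ 1 ∧ a * b ≠ 1 ∧ pPrimeCore 2 ↥(C1 a) = ⊥ ∧
    pPrimeCore 2 ↥(C1 b) = ⊥ ∧ pPrimeCore 2 ↥(C1 (a * b)) = ⊥) →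
  V.Normal ∨ IsSimpleGroup G

def IrrGStmt : Prop := ∀ (G : Type u) [Group G] [Finite G] (V : Subgroup G) (ρ : NN V →* M24) ψ,
  St V ρ → Gol V ρ ψ → (∀ B : Subgroup G, B ≤ V → NN V ≤ NN B → B = ⊥ ∨ B = V) ∧
    ∃ O ∈ octads, ∃ O' ∈ octads, ∃ O'' ∈ octads, ψ O * ψ O' = ψ O'' ∧ ∀ o ∈ octads, ψ o ≠ 1

def IrrTStmt : Prop := ∀ (G : Type u) [Group G] [Finite G] (V : Subgroup G) (ρ : NN V →* M24) ψ,
  St V ρ → Tod V ρ ψ → (∀ B : Subgroup G, B ≤ V → NN V ≤ NN B → B = ⊥ ∨ B = V) ∧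
    ∃ t t' t'' : Finset GolayPt, t.card = 4 ∧ t'.card = 4 ∧ t''.card = 4 ∧ ψ t * ψ t' = ψ t'' ∧
      ∀ s : Finset GolayPt, s.card = 4 → ψ s ≠ 1

/-- fixed points on the code module -/
def RkGStmt : Prop := ∀ (G : Type u) [Group G] [Finite G] (V : Subgroup G) (ρ : NN V →* M24) ψ,
  St V ρ → Gol V ρ ψ → ∀ n ∈ NN V, 2 ^ 8 ≤ Nat.card ↥(V ⊓ C1 n) → n ∈ V

def RkTStmt : Prop := ∀ (G : Type u) [Group G] [Finite G] (V : Subgroup G) (ρ : NN V →* M24) ψ,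
  St V ρ → Tod V ρ ψ → ∀ n ∈ NN V, 2 ^ 8 ≤ Nat.card ↥(V ⊓ C1 n) → n ∈ V

/-- QG -/
def QgStmt : Prop := ∀ (G : Type u) [Group G] [Finite G] (V : Subgroup G) (ρ : NN V →* M24) ψ,
  St V ρ → Gol V ρ ψ → ∀ O ∈ octads, ∃ Q W, LC V (ψ O) Q W ∧ LG V ρ ψ O Q W

/-- QT -/
def QtStmt : Prop := ∀ (G : Type u) [Group G] [Finite G] (V : Subgroup G) (ρ : NN V →* M24) ψ,
  St V ρ → Tod V ρ ψ → ∀ t : Finset GolayPt, t.card = 4 →
    ∃ Q W ω, LC V (ψ t) Q W ∧ LT V (ψ t) Q W ω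

/-- SCG -/
def ScGStmt : Prop := ∀ (G : Type u) [Group G] [Finite G] (V : Subgroup G) (ρ : NN V →* M24) ψ,
  St V ρ → Gol V ρ ψ → WC V → ∀ O ∈ octads, ∀ Q W, LC V (ψ O) Q W → LG V ρ ψ O Q W →
    SQ Q (ψ O)

/-- SCT -/
def ScTStmt : Prop := ∀ (G : Type u) [Group G] [Finite G] (V : Subgroup G) (z : G)
  (Q W : Subgroup G) (ω : G), (∀ v ∈ V, v * v = 1) → WC V → LC V z Q W → LT V z Q W ω → SQ Q z

/-- GS -/
def GsStmt : Prop := ∀ (G : Type u) [Group G] [Finite G] (V : Subgroup G) (z : G)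
  (Q W : Subgroup G), (∀ v ∈ V, v * v = 1) → CC V = V → WC V → LC V z Q W →
  2 ^ 9 ≤ Nat.card Q → pPrimeCore 2 ↥(C1 z) = ⊥ → SQ Q z → LX Q z

/-- ENDG -/
def EndGStmt : Prop := ∀ (G : Type u) [Group G] [Finite G] (Q : Subgroup G) (z : G),
  IsSimpleGroup G → LX Q z → Nat.card Q = 2 ^ 9 → 2 ^ 21 ∣ Nat.card G → Spor.IsoCo1 G

/-- ENDT -/
def EndTStmt : Prop := ∀ (G : Type u) [Group G] [Finite G] (V : Subgroup G) (ρ : NN V →* M24) ψ,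
  St V ρ → Tod V ρ ψ → WC V → IsSimpleGroup G → ∀ t : Finset GolayPt, t.card = 4 →
    ∀ Q W ω, LC V (ψ t) Q W → LT V (ψ t) Q W ω → LX Q (ψ t) →
      IsOfJankoFourType G ∨ IsFi24' G

end Cfsg.Agent.H18.Rf
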