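import Mathlib
import Cfsg.Agent.H53.Transp

/-!
Abelian best offenders in a solvable group with trivial `O₂` are elementary abelian.
-/

set_option autoImplicit false

open Subgroup
open scoped commutatorElement Pointwise MatrixGroups

namespace Cfsg.Agent.H18.FFA

open Cfsg.Agent.H53

variable {G : Type*} [Group G] [Finite G]

theorem step {U : Subgroup G} (hU : IsElementaryAbelian 2 U) {x : G}
    (hx : x ∈ normalizer (U : Set G)) (h2 : IsPGroup 2 (zpowers x)) (hne : ⁅U, zpowers x⁆ ≠ ⊥) :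
    2 * Nat.card ↥⁅U, zpowers (x ^ 2)⁆ ≤ Nat.card ↥⁅U, zpowers x⁆ := by
  have hxU : zpowers x ≤ normalizer (U : Set G) := zpowers_le.2 hx
  have hWU : ⁅U, zpowers x⁆ ≤ U := commutator_le_of_le_normalizer hxU
  have hxW : zpowers x ≤ normalizer ((⁅U, zpowers x⁆ : Subgroup G) : Set G) :=
    le_normalizer_commutator hxU le_normalizer
  have hW2 : IsPGroup 2 ↥⁅U, zpowers x⁆ := (isPGroup_of_elemAb hU).to_le hWU
  have h1 : ⁅⁅U, zpowers x⁆, zpowers x⁆ < ⁅U, zpowers x⁆ := by
    refine lt_of_le_of_ne (commutator_le_of_le_normalizer hxW) fun h => hne ?_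
    exact eq_bot_of_le_commutator_of_isPGroup hW2 h2 hxW h.ge
  have h3 : ⁅U, zpowers (x ^ 2)⁆ ≤ ⁅⁅U, zpowers x⁆, zpowers x⁆ := by
    refine commutator_zpowers_le (h1.le.trans hWU) (pow_mem hx 2) fun v hv => ?_
    have hw : ⁅v, x⁆ ∈ ⁅U, zpowers x⁆ := commutator_mem_commutator hv (mem_zpowers x)
    have hw2 : ⁅v, x⁆ ^ 2 = 1 := hU.2 _ (hWU hw)
    have hi : ⁅v, x⁆⁻¹ = ⁅v, x⁆ := by
      rw [inv_eq_iff_mul_eq_one, ← sq, hw2]
    have : ⁅v, x ^ 2⁆ = ⁅⁅v, x⁆, x⁆ := by
      rw [commutatorElement_def ⁅v, x⁆, hi]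
      simp only [commutatorElement_def, sq]
      group
    rw [this]
    exact commutator_mem_commutator hw (mem_zpowers x)
  exact mul_card_le_of_lt hW2 (lt_of_le_of_lt h3 h1)

omit [Finite G] in
theorem pgroup_pow {x : G} (h2 : IsPGroup 2 (zpowers x)) (n : ℕ) :
    IsPGroup 2 (zpowers (x ^ n)) :=
  h2.to_le (zpowers_le.2 (pow_mem (mem_zpowers x) n))

theorem chain {U : Subgroup G} (hU : IsElementaryAbelian 2 U) {x : G}
    (hx : x ∈ normalizer (U : Set G)) (h2 : IsPGroup 2 (zpowers x)) (j : ℕ)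
    (hne : ⁅U, zpowers (x ^ 2 ^ j)⁆ ≠ ⊥) :
    2 ^ j * Nat.card ↥⁅U, zpowers (x ^ 2 ^ j)⁆ ≤ Nat.card ↥⁅U, zpowers x⁆ := by
  induction j with
  | zero => simp
  | succ j ih =>
    have e : x ^ 2 ^ (j + 1) = (x ^ 2 ^ j) ^ 2 := by rw [pow_succ, pow_mul]
    rw [e] at hne ⊢
    have hne' : ⁅U, zpowers (x ^ 2 ^ j)⁆ ≠ ⊥ := fun h => hne (eq_bot_iff.2 (h ▸
      commutator_mono le_rfl (zpowers_le.2 (pow_mem (mem_zpowers _) 2))))
    have h1 := step hU (pow_mem hx _) (pgroup_pow h2 _) hne'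
    have h3 := ih hne'
    calc _ = 2 ^ j * (2 * Nat.card ↥⁅U, zpowers ((x ^ 2 ^ j) ^ 2)⁆) := by ring
      _ ≤ _ := (Nat.mul_le_mul_left _ h1).trans h3

/-- The square of a `2`-element normalizing an odd order group is not a transvection. -/
theorem four_le {U Q : Subgroup G} (hU : IsElementaryAbelian 2 U)
    (hQ : (Nat.card Q).Coprime 2) (hQU : Q ≤ normalizer (U : Set G))
    (hf : Q ⊓ centralizer (U : Set G) = ⊥) {s : G} (hsU : s ∈ normalizer (U : Set G))
    (hsQ : s ∈ normalizer (Q : Set G)) (hs : (s ^ 2) ^ 2 = 1)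
    (hn : s ^ 2 ∉ centralizer (Q : Set G)) : 4 ≤ Nat.card ↥⁅U, zpowers (s ^ 2)⁆ := by
  generalize ht : s ^ 2 = t at hs hn
  have htU : t ∈ normalizer (U : Set G) := ht ▸ pow_mem hsU 2
  have htQ : t ∈ normalizer (Q : Set G) := ht ▸ pow_mem hsQ 2
  have ht1 : t ≠ 1 := fun h => hn (h ▸ one_mem _)
  have hto : orderOf t = 2 := orderOf_eq_prime hs ht1
  have hc : Nat.card (zpowers t) = 2 := by rw [Nat.card_zpowers, hto]
  have hC : (Q ⊔ zpowers t) ⊓ centralizer (Q : Set G) ≤ Q := by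
    rintro x ⟨hx, hxc⟩
    obtain ⟨q, hq, y, hy, rfl⟩ := (mem_sup_of_le_normalizer (zpowers_le.2 htQ)).1 hx
    rcases eq_bot_or_eq_of_card_prime hc (zpowers_le.2 hy) with h | h
    · rw [zpowers_eq_bot.1 h, mul_one]; exact hq
    exfalso
    have hy2 : y ^ 2 = 1 := by
      obtain ⟨k, rfl⟩ := mem_zpowers_iff.1 hy
      rw [← zpow_natCast, ← zpow_mul, mul_comm, zpow_mul, zpow_natCast, hs, one_zpow]
    have hcq : Commute q y := by
      have := hxc q hq
      rw [mul_assoc] at this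
      exact (mul_left_cancel this)
    have h1 : q ^ 2 ∈ centralizer (Q : Set G) := by
      have := pow_mem hxc 2
      rwa [hcq.mul_pow, hy2, mul_one] at this
    have h2 : q ∈ centralizer (Q : Set G) := by
      have ho : (orderOf q).Coprime 2 := hQ.coprime_dvd_left (Subgroup.orderOf_dvd_natCard Q hq)
      obtain ⟨m, hm⟩ := exists_pow_eq_self_of_coprime (x := q) ho.symm
      rw [← hm]
      exact pow_mem h1 m
    have h3 : y ∈ centralizer (Q : Set G) := (mul_mem_cancel_left h2).1 hxc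
    exact hn ((h ▸ zpowers_le.2 h3 : zpowers t ≤ _) (mem_zpowers t))
  have hHQ : Q ⊔ zpowers t ≤ normalizer (Q : Set G) := sup_le le_normalizer (zpowers_le.2 htQ)
  have h : FFHyp 2 U (Q ⊔ zpowers t) Q := by
    refine ⟨hU, sup_le hQU (zpowers_le.2 htU), ?_, le_sup_left, hHQ, hQ, hC⟩
    rw [eq_bot_iff, ← hf]
    refine le_inf ((le_inf inf_le_left ?_).trans hC) inf_le_right
    rw [le_centralizer_iff, ← commutator_eq_bot_iff_le_centralizer, eq_bot_iff, ← hf]
    refine le_inf (commutator_le_of_le_normalizer (inf_le_left.trans hHQ)) ?_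
    rw [commutator_comm]
    exact (commutator_mono inf_le_right le_rfl).trans
      (commutator_le_of_le_normalizer (le_normalizer_centralizer hQU))
  by_contra hlt
  have hA : zpowers t ≤ Q ⊔ zpowers t := le_sup_right
  have hne := h.commutator_ne_bot hA (zpowers_ne_bot.2 ht1)
  have tA : IsTransv 2 U (zpowers t) := by
    refine ⟨hc, ?_⟩
    obtain ⟨k, hk⟩ := IsPGroup.iff_card.1 (isPGroup_of_elemAb (h.elemAb_comm hA))
    rw [hk] at hlt ⊢
    rcases k with _ | _ | k
    · exact absurd (card_eq_one.1 hk) hne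
    · rfl
    · exfalso
      apply hlt
      calc 4 = 2 ^ 2 := rfl
        _ ≤ _ := Nat.pow_le_pow_right (by norm_num) (by omega)
  have h6 := FFHyp.card_E h hA tA
  have h7 := (h.comm_R hA tA).2.2
  have h8 : Nat.card ↥⁅Q, zpowers t⁆ ∣ 6 :=
    (card_dvd_of_le (le_sup_left : _ ≤ ⁅Q, zpowers t⁆ ⊔ zpowers t)).trans (by rw [h6]; decide)
  have h9 : (Nat.card ↥⁅Q, zpowers t⁆).Coprime 2 :=
    hQ.coprime_dvd_left (card_dvd_of_le (h.comm_le_Q hA))
  have h3 : Nat.card ↥⁅Q, zpowers t⁆ = 3 := by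
    have := Nat.le_of_dvd (by norm_num) h8
    generalize Nat.card ↥⁅Q, zpowers t⁆ = n at h7 h8 h9 this
    interval_cases n
    · rfl
    all_goals first | exact absurd h8 (by decide) | exact absurd h9 (by decide)
  have : Fact (Nat.Prime 3) := ⟨Nat.prime_three⟩
  have hst : s ∈ normalizer ((zpowers t : Subgroup G) : Set G) :=
    centralizer_le_normalizer _ (mem_centralizer_zpowers.2 (by rw [← ht]; group))
  have h10 := pow_sub_one_mem_centralizer h3
    (le_normalizer_commutator (zpowers_le.2 hsQ) (zpowers_le.2 hst) (mem_zpowers s))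
  have h11 : ⁅⁅Q, zpowers t⁆, zpowers t⁆ = ⊥ := by
    rw [commutator_eq_bot_iff_le_centralizer, le_centralizer_iff, zpowers_le, ← ht]
    exact ht ▸ h10
  rw [H4.commutator_commutator_eq (zpowers_le.2 htQ) (hc ▸ hQ.symm)
    (Or.inl inferInstance)] at h11
  rw [h11, card_bot] at h3
  omega

omit [Finite G] in
theorem relIndex_zpowers_dvd {B : Subgroup G} {c : G} {l : ℕ} (h : c ^ l ∈ B) :
    B.relIndex (zpowers c) ∣ l := by
  have : (B.subgroupOf (zpowers c)).Normal := inferInstance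
  have h1 : ∀ x : zpowers c ⧸ B.subgroupOf (zpowers c),
      x ∈ zpowers (QuotientGroup.mk ⟨c, mem_zpowers c⟩ : zpowers c ⧸ B.subgroupOf (zpowers c)) := by
    intro x
    obtain ⟨⟨_, k, rfl⟩, rfl⟩ := QuotientGroup.mk_surjective x
    exact ⟨k, (QuotientGroup.mk_zpow _ _ k).symm⟩
  unfold relIndex index
  rw [← orderOf_eq_card_of_forall_mem_zpowers h1]
  refine orderOf_dvd_of_pow_eq_one ?_
  rw [← QuotientGroup.mk_pow, QuotientGroup.eq_one_iff]
  exact h

/-- An abelian `2`-subgroup satisfying the best offender inequality is elementary abelian. -/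
theorem sq_eq_one {V H Q A : Subgroup G} (h : FFHyp 2 V H Q) (hAH : A ≤ H)
    (hAc : IsMulCommutative A) (hAp : IsPGroup 2 A) (hA : ∀ B ≤ A, meas V B ≤ meas V A)
    {a : G} (ha : a ∈ A) : a ^ 2 = 1 := by
  classical
  by_contra hne
  obtain ⟨s, hsA, hs1, hs⟩ : ∃ s ∈ A, s ^ 2 ≠ 1 ∧ (s ^ 2) ^ 2 = 1 := by
    have hex : ∃ k : ℕ, (a ^ 2) ^ 2 ^ k = 1 := by
      obtain ⟨k, hk⟩ := hAp ⟨a ^ 2, pow_mem ha 2⟩
      exact ⟨k, congrArg Subtype.val hk⟩
    have h0 := Nat.find_spec hex
    obtain hk | ⟨k, hk⟩ := (Nat.find hex).eq_zero_or_eq_succ_pred.imp_right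
      fun h => (⟨_, h⟩ : ∃ k, Nat.find hex = k + 1)
    · rw [hk] at h0
      exact absurd (by simpa using h0) hne
    · refine ⟨a ^ 2 ^ k, pow_mem ha _, ?_, ?_⟩
      · rw [← pow_mul, mul_comm, pow_mul]
        exact Nat.find_min hex (by omega)
      · rw [hk] at h0
        rw [← h0, ← pow_mul, ← pow_mul, ← pow_mul]
        congr 1
        ring
  have htA : s ^ 2 ∈ A := pow_mem hsA 2
  have hDA : zpowers (s ^ 2) ≤ A := zpowers_le.2 htA
  have h1 : ¬ Q ≤ centralizer ((zpowers (s ^ 2) : Subgroup G) : Set G) := fun h1 =>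
    zpowers_ne_bot.2 hs1 (h.eq_bot_of_le_Q (hAp.to_le hDA)
      ((le_inf (hDA.trans hAH) (le_centralizer_iff.1 h1)).trans h.hC))
  have h2 := mt (H4.le_of_centralizer_cocyclic_le
    (H := centralizer ((zpowers (s ^ 2) : Subgroup G) : Set G))
    (hAH.trans h.hHQ) (h.coprime_Q hAp)) h1
  push Not at h2
  obtain ⟨B, hBA, ⟨x, hx, hB⟩, hQB⟩ := h2
  have hAB : A ≤ centralizer (B : Set G) := le_centralizer_of_le_comm hAc le_rfl hBA
  have hAU : A ≤ normalizer ((V ⊓ centralizer (B : Set G) : Subgroup G) : Set G) :=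
    le_normalizer_inf (hAH.trans h.hHV)
      (le_normalizer_centralizer (hAB.trans (centralizer_le_normalizer _)))
  have hAQ : A ≤ normalizer ((Q ⊓ centralizer (B : Set G) : Subgroup G) : Set G) :=
    le_normalizer_inf (hAH.trans h.hHQ)
      (le_normalizer_centralizer (hAB.trans (centralizer_le_normalizer _)))
  have hU : IsElementaryAbelian 2 (V ⊓ centralizer (B : Set G)) :=
    IsElementaryAbelian.of_le' h.hV inf_le_left
  have hQ' : (Nat.card ↥(Q ⊓ centralizer (B : Set G))).Coprime 2 :=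
    h.hQ.coprime_dvd_left (card_dvd_of_le inf_le_left)
  have h4 := four_le hU hQ'
    (le_normalizer_inf (inf_le_left.trans (h.hQH.trans h.hHV))
      (le_normalizer_centralizer (inf_le_right.trans (centralizer_le_normalizer _))))
    (by
      have k1 : Q ⊓ centralizer (B : Set G) ⊓
          centralizer ((V ⊓ centralizer (B : Set G) : Subgroup G) : Set G) ≤ H :=
        inf_le_left.trans (inf_le_left.trans h.hQH)
      refine h.eq_bot_of_le_centralizer k1 (le_centralizer_iff.1 ?_)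
      exact H4.thompson_p_times_q (hAp.to_le hBA)
        (hQ'.coprime_dvd_left (card_dvd_of_le inf_le_left)) (isPGroup_of_elemAb h.hV)
        (le_centralizer_iff.1 (inf_le_left.trans inf_le_right)) (hBA.trans (hAH.trans h.hHV))
        (k1.trans h.hHV) (le_centralizer_iff.1 inf_le_right))
    (hAU hsA) (hAQ hsA) hs (fun k => hQB (le_centralizer_iff.1 (zpowers_le.2 k)))
  generalize hUe : V ⊓ centralizer (B : Set G) = U at hU hAU h4
  have hBU : B ≤ centralizer (U : Set G) := le_centralizer_iff.1 (hUe ▸ inf_le_right)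
  have hxp : IsPGroup 2 (zpowers x) := hAp.to_le (zpowers_le.2 hx)
  -- `s² = b x^i`
  obtain ⟨b, hb, y, hy, hby⟩ := (mem_sup_of_le_normalizer
    ((zpowers_le.2 (hAB hx)).trans (centralizer_le_normalizer _))).1 (hB.ge htA)
  obtain ⟨i, rfl⟩ := mem_powers_iff_mem_zpowers.2 hy
  have hcomm : ⁅U, zpowers (s ^ 2)⁆ ≤ ⁅U, zpowers (x ^ i)⁆ := by
    refine commutator_zpowers_le (commutator_le_of_le_normalizer
      (zpowers_le.2 (hAU (pow_mem hx i)))) (hAU htA) fun v hv => ?_
    have e1 : b * x ^ i = x ^ i * b := comm_of_mem hAc (hBA hb) (pow_mem hx i)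
    have e2 : v * b = b * v := hBU hb v hv
    have : ⁅v, s ^ 2⁆ = ⁅v, x ^ i⁆ := by
      rw [← hby]
      change ⁅v, b * x ^ i⁆ = _
      rw [e1, commutatorElement_def, commutatorElement_def]
      calc v * (x ^ i * b) * v⁻¹ * (x ^ i * b)⁻¹
          = v * x ^ i * (b * v⁻¹ * b⁻¹) * (x ^ i)⁻¹ := by group
        _ = _ := by
          rw [show b * v⁻¹ * b⁻¹ = v⁻¹ by
            rw [mul_inv_eq_iff_eq_mul, eq_inv_mul_iff_mul_eq, ← mul_assoc, e2]; group]
    rw [this]
    exact commutator_mem_commutator hv (mem_zpowers _)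
  have hi0 : i ≠ 0 := by
    rintro rfl
    have := card_le_of_le hcomm
    rw [pow_zero, zpowers_one_eq_bot, commutator_bot_right, card_bot] at this
    omega
  obtain ⟨j, m, hm, rfl⟩ := Nat.exists_eq_two_pow_mul_odd hi0
  have hcomm' : ⁅U, zpowers (s ^ 2)⁆ ≤ ⁅U, zpowers (x ^ 2 ^ j)⁆ :=
    hcomm.trans (commutator_mono le_rfl (zpowers_le.2 (by
      rw [pow_mul]; exact pow_mem (mem_zpowers _) _)))
  have h5 := h4.trans (card_le_of_le hcomm')
  have h6 := chain hU (hAU hx) hxp j (fun k => by rw [k, card_bot] at h5; omega)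
  have h7 : x ^ 2 ^ (j + 1) ∈ B := by
    have k1 : (x ^ 2 ^ (j + 1)) ^ m ∈ B := by
      have e1 : Commute b (x ^ (2 ^ j * m)) := comm_of_mem hAc (hBA hb) (pow_mem hx _)
      have e2 : (b * x ^ (2 ^ j * m)) ^ 2 = 1 := by
        have := hby
        simp only at this
        rw [this, hs]
      rw [e1.mul_pow, mul_eq_one_iff_inv_eq] at e2
      have e3 : (x ^ 2 ^ (j + 1)) ^ m = (x ^ (2 ^ j * m)) ^ 2 := by
        rw [← pow_mul, ← pow_mul]; congr 1; ring
      rw [e3, ← e2]
      exact inv_mem (pow_mem hb 2)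
    obtain ⟨k, hk⟩ := (pgroup_pow hxp (2 ^ (j + 1))) ⟨_, mem_zpowers _⟩
    have hk' : (x ^ 2 ^ (j + 1)) ^ 2 ^ k = 1 := congrArg Subtype.val hk
    have ho : m.Coprime (orderOf (x ^ 2 ^ (j + 1))) :=
      (Nat.Coprime.pow_right k (Nat.coprime_two_right.2 hm)).coprime_dvd_right
        (orderOf_dvd_of_pow_eq_one hk')
    obtain ⟨n, hn⟩ := exists_pow_eq_self_of_coprime ho
    rw [← hn]
    exact pow_mem k1 n
  have h8 : B.relIndex A ≤ 2 ^ (j + 1) := by
    rw [← hB, relIndex_sup_of_le_normalizer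
      ((zpowers_le.2 (hAB hx)).trans (centralizer_le_normalizer _))]
    exact Nat.le_of_dvd (by positivity) (relIndex_zpowers_dvd h7)
  have h9 := hA B hBA
  have h10 := card_centralizer_mul_card_commutator hU.1 (hAU hx)
  have h11 : Nat.card ↥(V ⊓ centralizer (A : Set G)) ≤
      Nat.card ↥(U ⊓ centralizer ((zpowers x : Subgroup G) : Set G)) := by
    refine card_le_of_le (le_inf ?_ (inf_le_right.trans (centralizer_anti (zpowers_le.2 hx))))
    rw [← hUe]
    exact inf_le_inf_left _ (centralizer_anti hBA)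
  rw [meas, meas, hUe, ← card_mul_relIndex hBA, mul_assoc] at h9
  have h12 := Nat.le_of_mul_le_mul_left h9 Nat.card_pos
  have h13 : 0 < Nat.card ↥(U ⊓ centralizer ((zpowers x : Subgroup G) : Set G)) := Nat.card_pos
  have h14 : 2 ^ j * 4 ≤ Nat.card ↥⁅U, zpowers x⁆ := (Nat.mul_le_mul_left _ h5).trans h6
  have h15 := h12.trans (Nat.mul_le_mul h8 h11)
  rw [← h10, mul_comm] at h15
  have h16 := h14.trans (Nat.le_of_mul_le_mul_right h15 h13)
  have : 0 < 2 ^ j := by positivity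
  rw [pow_succ] at h16
  omega

/-- The inequality passes from an abelian `V` to a subgroup `W`. -/
theorem meas_le_of_le {V W A B : Subgroup G} (hV : IsMulCommutative V) (hW : W ≤ V) (hB : B ≤ A)
    (h : meas V B ≤ meas V A) : meas W B ≤ meas W A := by
  have h1 := card_inf_mul_card_sup (B := W ⊓ centralizer (B : Set G))
    (C := V ⊓ centralizer (A : Set G))
    (le_normalizer_of_le_comm hV inf_le_left (inf_le_left.trans hW))
  have h2 : W ⊓ centralizer (B : Set G) ⊓ (V ⊓ centralizer (A : Set G)) =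
      W ⊓ centralizer (A : Set G) :=
    le_antisymm (inf_le_inf inf_le_left inf_le_right) (le_inf
      (inf_le_inf_left _ (centralizer_anti hB)) (inf_le_inf_right _ hW))
  have h3 : Nat.card ↥((W ⊓ centralizer (B : Set G)) ⊔ (V ⊓ centralizer (A : Set G))) ≤
      Nat.card ↥(V ⊓ centralizer (B : Set G)) :=
    card_le_of_le (sup_le (inf_le_inf_right _ hW) (inf_le_inf_left _ (centralizer_anti hB)))
  rw [h2] at h1
  unfold meas at h ⊢
  have h4 : 0 < Nat.card ↥(V ⊓ centralizer (A : Set G)) := Nat.card_pos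
  refine Nat.le_of_mul_le_mul_right ?_ h4
  calc _ = Nat.card B * (Nat.card ↥(W ⊓ centralizer (B : Set G)) *
        Nat.card ↥(V ⊓ centralizer (A : Set G))) := by ring
    _ ≤ Nat.card B * (Nat.card ↥(W ⊓ centralizer (A : Set G)) *
        Nat.card ↥(V ⊓ centralizer (B : Set G))) := by
        rw [← h1]; exact Nat.mul_le_mul_left _ (Nat.mul_le_mul_left _ h3)
    _ = Nat.card ↥(W ⊓ centralizer (A : Set G)) *
        (Nat.card B * Nat.card ↥(V ⊓ centralizer (B : Set G))) := by ring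
    _ ≤ Nat.card ↥(W ⊓ centralizer (A : Set G)) *
        (Nat.card A * Nat.card ↥(V ⊓ centralizer (A : Set G))) := Nat.mul_le_mul_left _ h
    _ = _ := by ring

theorem meas_map_le {Γ : Type*} [Group Γ] {V : Subgroup G} [V.Normal] {ι : V →* Γ} {f : G →* Γ}
    (T : Transp V ι f) {A : Subgroup G} (hA : ∀ B ≤ A, meas V B ≤ meas V A) :
    ∀ B ≤ A.map f, meas ι.range B ≤ meas ι.range (A.map f) := by
  intro B hB
  have h1 : (A ⊓ B.comap f).map f = B := by
    refine le_antisymm ((map_mono inf_le_right).trans (map_comap_le f B)) fun b hb => ?_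
    obtain ⟨a, ha, rfl⟩ := hB hb
    exact mem_map_of_mem f ⟨ha, hb⟩
  have h2 : centralizer (V : Set G) ⊓ (A ⊓ B.comap f) = centralizer (V : Set G) ⊓ A := by
    rw [← inf_assoc, inf_eq_left.2 (inf_le_left.trans (T.ker_eq ▸ ker_le_comap f B))]
  have h3 := T.meas_map (A ⊓ B.comap f)
  rw [h1, h2] at h3
  have h4 : meas V (A ⊓ B.comap f) ≤ meas V A := hA _ inf_le_left
  rw [← h3, ← T.meas_map A] at h4
  exact Nat.le_of_mul_le_mul_left h4 Nat.card_pos

omit [Finite G] in
/-- An internal direct product of normal subgroups isomorphic to `Y`. -/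
theorem equiv_pi {Y : Type*} [Group Y] {I : Type*} [Finite I] {H : Subgroup G}
    (E : I → Subgroup G) (hn : ∀ i, H ≤ normalizer (E i : Set G)) (he : ∀ i, Nonempty (E i ≃* Y))
    (hi : iSupIndep E) (hs : ⨆ i, E i = H) : Nonempty (H ≃* (Fin (Nat.card I) → Y)) := by
  classical
  have := Fintype.ofFinite I
  have hle : ∀ i, E i ≤ H := fun i => hs ▸ le_iSup E i
  have hc : Pairwise fun i j : I => ∀ {x y : G}, x ∈ E i → y ∈ E j → Commute x y := by
    intro i j hij x y hx hy
    have h1 : ⁅E i, E j⁆ ≤ E i ⊓ E j := by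
      refine le_inf (commutator_le_of_le_normalizer ((hle j).trans (hn i))) ?_
      rw [commutator_comm]
      exact commutator_le_of_le_normalizer ((hle i).trans (hn j))
    rw [disjoint_iff.1 (hi.pairwiseDisjoint hij), le_bot_iff] at h1
    exact commutatorElement_eq_one_iff_commute.1
      (mem_bot.1 (h1 ▸ commutator_mem_commutator hx hy))
  have hinj := Subgroup.injective_noncommPiCoprod_of_iSupIndep (hcomm := hc) hi
  have hr := Subgroup.noncommPiCoprod_range (hcomm := hc)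
  have e1 := (MonoidHom.ofInjective hinj).trans (MulEquiv.subgroupCongr (hr.trans hs))
  have e2 : (∀ i, E i) ≃* (I → Y) := MulEquiv.piCongrRight fun i => (he i).some
  exact ⟨e1.symm.trans (e2.trans (MulEquiv.arrowCongr (Finite.equivFin I) (MulEquiv.refl Y)))⟩

end Cfsg.Agent.H18.FFA
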