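import Cfsg.Agent.H18.Syl
import Cfsg.Agent.H59.PermMod

/-!
# Summands of permutation modules of `p`-groups

An invariant idempotent matrix `E` on a finite set acted on by a `p`-group, whose rank is at most
the index of a maximal subgroup `Z` with non-zero Brauer quotient, has all its non-zero Brauer
quotients at subgroups of conjugates of `Z`.
-/

set_option autoImplicit false
set_option linter.unusedSectionVars false

namespace Cfsg.Agent.H18

open Cfsg MulAction Matrix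

variable {p : ℕ} [Fact p.Prime] {F : Type*} [Field F] [CharP F p] {Γ X : Type*} [Group Γ]
  [Finite Γ] [Fintype X] [MulAction Γ X] {E : Matrix X X F} {Z : Subgroup Γ}

open scoped Classical in
theorem sum_eq_sum_ite_stabilizer (hΓ : IsPGroup p Γ) (T : Subgroup Γ) (f : X → F)
    (hf : ∀ t ∈ T, ∀ x, f (t • x) = f x) :
    ∑ x, f x = ∑ x, if T ≤ stabilizer Γ x then f x else 0 := by
  rw [sum_eq_sum_fixedPoints (hΓ.to_subgroup T)
    (fun v => by rw [nsmul_eq_mul, CharP.cast_eq_zero, zero_mul]) f (fun g x => hf g g.2 x),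
    Finset.sum_filter]
  exact Finset.sum_congr rfl fun x _ => if_congr
    ⟨fun h t ht => h ⟨t, ht⟩, fun h t => h t.2⟩ rfl rfl

theorem exists_stabilizer_of_sum_ne_zero (hΓ : IsPGroup p Γ) (T : Subgroup Γ) (f : X → F)
    (hf : ∀ t ∈ T, ∀ x, f (t • x) = f x) (h : ∑ x, f x ≠ 0) :
    ∃ x, T ≤ stabilizer Γ x ∧ f x ≠ 0 := by
  classical
  rw [sum_eq_sum_ite_stabilizer hΓ T f hf] at h
  obtain ⟨x, -, hx⟩ := Finset.exists_ne_zero_of_sum_ne_zero h
  exact ⟨x, by_contra fun h1 => hx (if_neg h1), fun h1 => hx (by rw [h1, ite_self])⟩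

/-- The Brauer quotient of `E` at `Z` is not zero. -/
def NZ (E : Matrix X X F) (Z : Subgroup Γ) : Prop :=
  ∃ x y, Z ≤ stabilizer Γ x ∧ Z ≤ stabilizer Γ y ∧ E x y ≠ 0

theorem stabilizer_smul_eq_cs (g : Γ) (x : X) : stabilizer Γ (g • x) = cs g (stabilizer Γ x) := by
  ext t
  rw [mem_cs, mem_stabilizer_iff, mem_stabilizer_iff, mul_smul, mul_smul, inv_smul_eq_iff]

theorem le_stabilizer_smul {g : Γ} (hg : g ∈ Nz Z) {x : X} :
    Z ≤ stabilizer Γ (g • x) ↔ Z ≤ stabilizer Γ x := by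
  rw [stabilizer_smul_eq_cs]
  conv_lhs => rw [← mem_Nz_iff_cs.1 hg]
  exact cs_le_cs

theorem smul_mem_orbit_iff' {g : Γ} {x y : X} : g • x ∈ orbit Γ y ↔ x ∈ orbit Γ y :=
  ⟨fun h => by simpa using mem_orbit_of_mem_orbit g⁻¹ h, mem_orbit_of_mem_orbit g⟩

theorem sum_mul_smul (hinv : ∀ (g : Γ) x y, E (g • x) (g • y) = E x y) (g : Γ) (x : X)
    (v : X → F) : ∑ y, E x y * v (g • y) = ∑ y, E (g • x) y * v y :=
  Fintype.sum_equiv (MulAction.toPerm g) _ _ fun y => by rw [MulAction.toPerm_apply, hinv]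

open scoped Classical in
theorem exists_orbit_sum_ne_zero (hΓ : IsPGroup p Γ) (hE : E * E = E)
    (hinv : ∀ (g : Γ) x y, E (g • x) (g • y) = E x y) (hZ : NZ E Z)
    (hmax : ∀ T, NZ E T → Z ≤ T → T ≤ Z) :
    ∃ x y, Z ≤ stabilizer Γ x ∧ stabilizer Γ y = Z ∧
      ∑ z, (if z ∈ orbit Γ y then E x z else 0) ≠ 0 := by
  let W : Submodule F (X → F) :=
    { carrier := {u | (∀ x, ¬ Z ≤ stabilizer Γ x → u x = 0) ∧
        ∀ x, Z ≤ stabilizer Γ x → ∑ y, E x y * u y = u x}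
      add_mem' := fun {a b} ha hb => ⟨fun x hx => by rw [Pi.add_apply, ha.1 x hx, hb.1 x hx, add_zero],
        fun x hx => by simp only [Pi.add_apply, mul_add, Finset.sum_add_distrib, ha.2 x hx, hb.2 x hx]⟩
      zero_mem' := ⟨fun _ _ => rfl, fun _ _ => by simp⟩
      smul_mem' := fun c a ha => ⟨fun x hx => by rw [Pi.smul_apply, ha.1 x hx, smul_zero],
        fun x hx => by
          simp only [Pi.smul_apply, smul_eq_mul, mul_left_comm _ c, ← Finset.mul_sum, ha.2 x hx]⟩ }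
  have hfix : ∀ {T : Subgroup Γ} {x : X}, T ≤ stabilizer Γ x → ∀ t ∈ T, ∀ y, E x (t • y) = E x y :=
    fun hx t ht y => by rw [← hinv t _ y, show t • _ = _ from hx ht]
  obtain ⟨u, hu, hu0, hun⟩ := H59.exists_ne_zero_fixed_of_isPGroup (hΓ.to_subgroup (Nz Z))
    ((permRep F Γ X).comp (Nz Z).subtype) W (fun g v hv =>
      ⟨fun x hx => hv.1 _ fun h => hx ((le_stabilizer_smul ((Nz Z).inv_mem g.2)).1 h),
        fun x hx => (sum_mul_smul hinv _ x v).trans
          (hv.2 _ ((le_stabilizer_smul ((Nz Z).inv_mem g.2)).2 hx))⟩) (by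
    obtain ⟨x, y, hx, hy, h⟩ := hZ
    refine (Submodule.ne_bot_iff W).2 ⟨fun z => if Z ≤ stabilizer Γ z then E z y else 0,
      ⟨fun z hz => if_neg hz, fun z hz => ?_⟩, fun h0 => h (by simpa [hx] using congrFun h0 x)⟩
    simp only [mul_ite, mul_zero, if_pos hz]
    rw [← sum_eq_sum_ite_stabilizer hΓ Z (fun w => E z w * E w y) fun t ht w => by
      rw [hfix hz t ht, ← hinv t w y, show t • y = y from hy ht], ← Matrix.mul_apply, hE])
  have hun' : ∀ g ∈ Nz Z, ∀ x, u (g • x) = u x := fun g hg x => by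
    rw [← inv_inv g]; exact congrFun (hun ⟨g⁻¹, (Nz Z).inv_mem hg⟩) x
  have h1 : ∀ y, u y ≠ 0 → stabilizer Γ y = Z := fun y hy => by
    have h2 : Z ≤ stabilizer Γ y := by_contra fun h => hy (hu.1 y h)
    have h3 : stabilizer Γ y ⊓ Nz Z ≤ Z := by
      rw [← hu.2 y h2] at hy
      obtain ⟨z, hz, h4⟩ := exists_stabilizer_of_sum_ne_zero hΓ (stabilizer Γ y ⊓ Nz Z) _
        (fun t ht w => by rw [hfix le_rfl t ht.1, hun' t ht.2]) hy
      exact hmax _ ⟨y, z, inf_le_left, hz, left_ne_zero_of_mul h4⟩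
        (le_inf h2 Subgroup.le_normalizer)
    by_contra h4
    exact not_le_of_gt (lt_inf_Nz_of_lt (hΓ.to_subgroup _) (lt_of_le_of_ne h2 (Ne.symm h4))) h3
  obtain ⟨x, hx⟩ := Function.ne_iff.1 hu0
  have hx' : Z ≤ stabilizer Γ x := (h1 x hx).ge
  rw [← hu.2 x hx', ← Finset.sum_fiberwise _ (Quotient.mk (orbitRel Γ X))] at hx
  obtain ⟨ω, -, hω⟩ := Finset.exists_ne_zero_of_sum_ne_zero hx
  obtain ⟨y, hy, hy0⟩ := Finset.exists_ne_zero_of_sum_ne_zero hω
  have hy1 := h1 y (right_ne_zero_of_mul hy0)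
  refine ⟨x, y, hx', hy1, fun h0 => hω ?_⟩
  rw [sum_eq_sum_ite_stabilizer hΓ Z _ fun t ht w => by
    rw [hfix hx' t ht]; exact if_congr smul_mem_orbit_iff' rfl rfl] at h0
  rw [← zero_mul (u y), ← h0, Finset.sum_mul, Finset.sum_filter]
  refine Finset.sum_congr rfl fun z _ => ?_
  rw [← (Finset.mem_filter.1 hy).2, if_congr (Quotient.eq.trans orbitRel_apply) rfl rfl]
  split_ifs with h2 h3
  · obtain ⟨g, rfl⟩ := h2
    rw [hun' g]
    rw [stabilizer_smul_eq_cs, hy1] at h3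
    exact mem_Nz_iff_cs.2 (eq_of_le_of_card_le h3 (card_cs _ _).le).symm
  · rw [hu.1 z h3, mul_zero, zero_mul]
  all_goals rw [zero_mul]

open scoped Classical in
theorem NZ.exists_cs_le (hΓ : IsPGroup p Γ) (hE : E * E = E)
    (hinv : ∀ (g : Γ) x y, E (g • x) (g • y) = E x y) (hZ : NZ E Z)
    (hmax : ∀ T, NZ E T → Z ≤ T → T ≤ Z)
    (hrk : ∀ A : Set X, (∀ u : X → F, (∀ x ∉ A, u x = 0) → E *ᵥ u = 0 → u = 0) →
      Nat.card A ≤ Z.index) {U : Subgroup Γ} (hU : NZ E U) : ∃ g, cs g U ≤ Z := by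
  obtain ⟨Z', hUZ, hZ'⟩ := (Set.toFinite {T : Subgroup Γ | NZ E T}).exists_le_maximal (a := U) hU
  by_contra h0
  have h1 : ∀ g, ¬ Z' ≤ cs g Z := fun g h => h0 ⟨g⁻¹, by rw [cs_le_iff, inv_inv]; exact hUZ.trans h⟩
  obtain ⟨x, y, hx, hy, hs⟩ := exists_orbit_sum_ne_zero hΓ hE hinv hZ hmax
  obtain ⟨x', y', hx', hy', hs'⟩ := exists_orbit_sum_ne_zero hΓ hE hinv hZ'.prop
    fun T hT h => hZ'.le_of_ge hT h
  have h2 : ∀ z ∈ orbit Γ y, ¬ Z' ≤ stabilizer Γ z := by
    rintro _ ⟨g, rfl⟩ h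
    exact h1 g (by rwa [stabilizer_smul_eq_cs, hy] at h)
  have h3 : y' ∉ orbit Γ y := fun h => h2 _ h hy'.ge
  have h4 : ∀ z ∈ orbit Γ y', z ∉ orbit Γ y := fun z hz h =>
    h3 (by rw [← orbit_eq_iff.2 h]; exact mem_orbit_symm.1 hz)
  have h5 := hrk (orbit Γ y ∪ orbit Γ y') fun u hu hu' => by
    by_contra hu0
    let W : Submodule F (X → F) :=
      { carrier := {u | (∀ x ∉ orbit Γ y ∪ orbit Γ y', u x = 0) ∧ E *ᵥ u = 0}
        add_mem' := fun {a b} ha hb =>
          ⟨fun x hx => by rw [Pi.add_apply, ha.1 x hx, hb.1 x hx, add_zero],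
            by rw [mulVec_add, ha.2, hb.2, add_zero]⟩
        zero_mem' := ⟨fun _ _ => rfl, mulVec_zero _⟩
        smul_mem' := fun c a ha => ⟨fun x hx => by rw [Pi.smul_apply, ha.1 x hx, smul_zero],
          by rw [mulVec_smul, ha.2, smul_zero]⟩ }
    obtain ⟨v, hv, hv0, hvn⟩ := H59.exists_ne_zero_fixed_of_isPGroup hΓ (permRep F Γ X) W
      (fun g v hv => ⟨fun x hx => hv.1 _ (by
        simpa only [Set.mem_union, smul_mem_orbit_iff'] using hx), funext fun x =>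
        (sum_mul_smul hinv _ x v).trans (congrFun hv.2 (g⁻¹ • x))⟩)
      ((Submodule.ne_bot_iff W).2 ⟨u, ⟨hu, hu'⟩, hu0⟩)
    have hvn' : ∀ w, ∀ z ∈ orbit Γ w, v z = v w := by
      rintro w _ ⟨g, rfl⟩
      rw [← inv_inv g]; exact congrFun (hvn g⁻¹) w
    have h6 : ∀ w, (∑ z, if z ∈ orbit Γ y then E w z else 0) * v y +
        (∑ z, if z ∈ orbit Γ y' then E w z else 0) * v y' = 0 := fun w => by
      rw [Finset.sum_mul, Finset.sum_mul, ← Finset.sum_add_distrib]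
      refine Eq.trans (Finset.sum_congr rfl fun z _ => ?_)
        (show ∑ y, E w y * v y = 0 from congrFun hv.2 w)
      split_ifs with h7 h8 h8
      · exact absurd h7 (h4 z h8)
      · rw [hvn' y z h7, zero_mul, add_zero]
      · rw [hvn' y' z h8, zero_mul, zero_add]
      · rw [hv.1 z (by simp [h7, h8])]; simp
    have h7 : (∑ z, if z ∈ orbit Γ y then E x' z else 0) = 0 := by
      by_contra h
      obtain ⟨z, hz, h8⟩ := exists_stabilizer_of_sum_ne_zero hΓ Z' _ (fun t ht w => by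
        rw [← hinv t x' w, show t • x' = x' from hx' ht]
        exact if_congr smul_mem_orbit_iff' rfl rfl) h
      exact h2 z (by_contra fun h9 => h8 (if_neg h9)) hz
    have h8 := h6 x'
    rw [h7, zero_mul, zero_add, mul_eq_zero, or_iff_right hs'] at h8
    have h9 := h6 x
    rw [h8, mul_zero, add_zero, mul_eq_zero, or_iff_right hs] at h9
    refine hv0 (funext fun z => ?_)
    by_cases hz : z ∈ orbit Γ y ∪ orbit Γ y'
    · exact hz.elim (fun h => (hvn' y z h).trans h9) fun h => (hvn' y' z h).trans h8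
    · exact hv.1 z hz
  rw [← hy, index_stabilizer, Nat.card_coe_set_eq] at h5
  exact not_lt_of_ge h5 (Set.ncard_lt_ncard
    ⟨Set.subset_union_left, fun h => h3 (h (Or.inr (mem_orbit_self y')))⟩)

end Cfsg.Agent.H18
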