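import Cfsg.Agent.H83.CharP
import Cfsg.Agent.H87.Transfer
import Cfsg.Agent.S0205
import Cfsg.Agent.H6.ZStar
import Cfsg.Agent.S0016

/-! Groups with a unique involution. -/

set_option autoImplicit false

namespace Cfsg.Agent.H18.Q2

open Subgroup Cfsg Cfsg.Agent.H83
open scoped commutatorElement

variable {G : Type*} [Group G] {z t a b c : G} {P Q J W : Subgroup G}

instance factTwo : Fact (Nat.Prime 2) := ⟨Nat.prime_two⟩

/-- The only possible involution of `P` is the involution `z`. -/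
structure UI (z : G) (P : Subgroup G) : Prop where
  sq : z * z = 1
  ne : z ≠ 1
  uniq : ∀ u ∈ P, u * u = 1 → u = 1 ∨ u = z

theorem UI.mono (h : UI z P) (hQ : Q ≤ P) : UI z Q := ⟨h.sq, h.ne, fun u hu => h.uniq u (hQ hu)⟩

theorem UI.inv (h : UI z P) : z⁻¹ = z := inv_eq_of_mul_eq_one_right h.sq

theorem UI.ord (h : UI z P) : orderOf z = 2 := orderOf_eq_prime (by rw [pow_two, h.sq]) h.ne

theorem UI.pg (h : UI z P) : IsPGroup 2 (zpowers z) :=
  isPGroup_zpowers (k := 1) (by rw [pow_one, pow_two, h.sq])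

theorem UI.pow (h : UI z P) (hc : c ∈ P) {k : ℕ} (hk : c ^ 2 ^ k = 1) (h1 : c ≠ 1) :
    z ∈ zpowers c := by
  induction k generalizing c with
  | zero => exact absurd (by simpa using hk) h1
  | succ k ih =>
    by_cases h2 : c * c = 1
    · exact (h.uniq c hc h2).resolve_left h1 ▸ mem_zpowers c
    · refine zpowers_le.2 (mul_mem (mem_zpowers c) (mem_zpowers c)) (ih (mul_mem hc hc) ?_ h2)
      rw [← pow_two, ← pow_mul, ← pow_succ', hk]

theorem UI.mem (h : UI z P) (hQ : Q ≤ P) (h2 : IsPGroup 2 Q) (hc : c ∈ Q) (h1 : c ≠ 1) : z ∈ Q := by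
  obtain ⟨k, hk⟩ := isPGroup_iff.1 h2 c hc
  exact zpowers_le.2 hc (h.pow (hQ hc) hk h1)

theorem UI.sq_ne (h : UI z P) (hc : c ∈ P) (h1 : c ≠ 1) (h2 : c ≠ z) : c * c ≠ 1 := fun e =>
  (h.uniq c hc e).elim h1 h2

theorem UI.conj (h : UI z P) (hz : z ∈ P) {g : G} (hg : g ∈ normalizer (P : Set G)) :
    g * z * g⁻¹ = z := by
  refine (h.uniq _ (conj_mem le_rfl hg hz) ?_).resolve_left fun e => h.ne ?_
  · calc _ = g * (z * z) * g⁻¹ := by group
      _ = 1 := by rw [h.sq]; group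
  · calc z = g⁻¹ * (g * z * g⁻¹) * g := by group
      _ = 1 := by rw [e]; group

theorem UI.eq_of_sq (h : UI z P) (ha : a ∈ P) (hb : b ∈ P) (hc : a * b = b * a)
    (e : a * a = b * b) : b = a ∨ b = z * a := by
  have h1 : b * a⁻¹ * (b * a⁻¹) = 1 := by
    calc _ = b * (a⁻¹ * (b * a) * a⁻¹) * a⁻¹ := by group
      _ = b * b * (a * a)⁻¹ := by rw [← hc]; group
      _ = 1 := by rw [e]; group
  rcases h.uniq _ (mul_mem hb (inv_mem ha)) h1 with h2 | h2
  · exact Or.inl (mul_inv_eq_one.1 h2)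
  · exact Or.inr (mul_inv_eq_iff_eq_mul.1 h2)

theorem UI.cj (h : UI z P) (g : G) : UI (g * z * g⁻¹) (H83.cj g P) := by
  refine ⟨?_, fun e => h.ne ?_, fun u hu e => ?_⟩
  · calc _ = g * (z * z) * g⁻¹ := by group
      _ = 1 := by rw [h.sq]; group
  · calc z = g⁻¹ * (g * z * g⁻¹) * g := by group
      _ = 1 := by rw [e]; group
  · have h1 : g⁻¹ * u * g * (g⁻¹ * u * g) = 1 := by
      calc _ = g⁻¹ * (u * u) * g := by group
        _ = 1 := by rw [e]; group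
    rcases h.uniq _ (mem_cj.1 hu) h1 with h2 | h2
    · left
      calc u = g * (g⁻¹ * u * g) * g⁻¹ := by group
        _ = 1 := by rw [h2]; group
    · right
      rw [← h2]; group

theorem quat_cases (n : ℕ) : IsCyclic (QuaternionGroup (2 ^ n)) ∨
    ∀ x : QuaternionGroup (2 ^ n), (∀ y, x * y = y * x) → x * x = 1 := by
  rcases n with _ | n
  · exact Or.inl QuaternionGroup.quaternionGroup_one_isCyclic
  refine Or.inr fun x hx => ?_
  rcases x with i | i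
  · have := hx (QuaternionGroup.xa 0)
    simp only [QuaternionGroup.a_mul_xa, QuaternionGroup.xa_mul_a, QuaternionGroup.xa.injEq] at this
    rw [QuaternionGroup.a_mul_a, QuaternionGroup.one_def]
    congr 1
    linear_combination -this
  · have := hx (QuaternionGroup.a 1)
    simp only [QuaternionGroup.a_mul_xa, QuaternionGroup.xa_mul_a, QuaternionGroup.xa.injEq] at this
    have h2 : ((2 : ℕ) : ZMod (2 * 2 ^ (n + 1))) = 0 := by push_cast; linear_combination this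
    have h3 := Nat.le_of_dvd two_pos ((ZMod.natCast_eq_zero_iff _ _).1 h2)
    have h4 : 0 < 2 ^ n := by positivity
    omega

variable [Finite G]

theorem UI.qs (h : UI z P) (h2 : IsPGroup 2 P) : IsCyclic P ∨
    ((∀ g ∈ P, g ∈ centralizer (P : Set G) → g * g = 1) ∧
      ∃ m ∈ P, (zpowers m).relIndex P = 2) := by
  have key : ∀ H : Subgroup P, Nat.card H = 2 → H.map P.subtype = zpowers z := fun H hH => by
    have h1 : Nat.card (H.map P.subtype) = 2 := (card_map_subtype H).trans hH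
    refine eq_of_le_of_card_ge (fun u hu => ?_) (by rw [h1, Nat.card_zpowers, h.ord])
    have := H4.pow_card_eq_one_of_mem hu
    rw [h1, pow_two] at this
    rcases h.uniq u (map_subtype_le H hu) this with e | e <;> rw [e]
    exacts [one_mem _, mem_zpowers z]
  rcases S0016.result 2 h2 (fun H K hH hK => map_injective P.subtype_injective
    ((key H hH).trans (key K hK).symm)) with h3 | ⟨-, n, ⟨e⟩⟩
  · exact Or.inl h3
  rcases quat_cases n with h4 | h4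
  · exact Or.inl (isCyclic_of_surjective e.symm e.symm.surjective)
  refine Or.inr ⟨fun g hg hc => ?_, (e.symm (QuaternionGroup.a 1) : P), SetLike.coe_mem _, ?_⟩
  · have := h4 (e ⟨g, hg⟩) fun y => by
      obtain ⟨y, rfl⟩ := e.surjective y
      rw [← map_mul, ← map_mul]
      exact congrArg e (Subtype.ext (hc y y.2).symm)
    rw [← map_mul, EmbeddingLike.map_eq_one_iff] at this
    exact congrArg Subtype.val this
  · have h5 := (zpowers ((e.symm (QuaternionGroup.a 1) : P) : G)).subgroupOf P |>.card_mul_index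
    rw [card_subgroupOf (zpowers_le.2 (SetLike.coe_mem _)), Nat.card_zpowers, orderOf_coe,
      e.symm.orderOf_eq, QuaternionGroup.orderOf_a_one, Nat.card_congr e.toEquiv,
      Nat.card_eq_fintype_card, QuaternionGroup.card] at h5
    refine Nat.eq_of_mul_eq_mul_left (by positivity : 0 < 2 * 2 ^ n) (h5.trans ?_)
    ring

theorem UI.cyc (h : UI z P) (h2 : IsPGroup 2 P) (hc : c ∈ P) (hcc : c ∈ centralizer (P : Set G))
    (h1 : c ≠ 1) (hz : c ≠ z) : IsCyclic P :=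
  (h.qs h2).resolve_right fun h3 => h.sq_ne hc h1 hz (h3.1 c hc hcc)

theorem UI.flip (h : UI z P) (h2 : IsPGroup 2 P) (ht : t * t = 1) (hn : t ∈ normalizer (P : Set G))
    (hc : t ∉ centralizer (P : Set G)) : ∃ b ∈ P, b * t * b⁻¹ = z * t := by
  have hp : IsPGroup 2 (zpowers t) := isPGroup_zpowers (k := 1) (by rw [pow_one, pow_two, ht])
  have hti : t⁻¹ = t := inv_eq_of_mul_eq_one_right ht
  induction P using WellFoundedLT.induction with | _ P ih =>
  have hlt : ⁅P, zpowers t⁆ < P := H4.commutator_lt_of_isPGroup hp h2 (zpowers_le.2 hn)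
    (by rintro rfl; exact hc fun g hg => by rw [mem_bot.1 hg, one_mul, mul_one])
  by_cases h3 : t ∈ centralizer ((⁅P, zpowers t⁆ : Subgroup G) : Set G)
  · obtain ⟨b, hb, hbt⟩ : ∃ b ∈ P, b * t ≠ t * b := by
      by_contra! h4
      exact hc h4
    have h4 : ⁅b, t⁆ ∈ ⁅P, zpowers t⁆ := commutator_mem_commutator hb (mem_zpowers t)
    have h5 : ⁅b, t⁆ * t = t * ⁅b, t⁆ := h3 _ h4
    have h6 : ⁅b, t⁆ * ⁅b, t⁆ = 1 := by
      calc _ = ⁅b, t⁆ * t * t⁻¹ * ⁅b, t⁆ := by group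
        _ = ⁅b, t⁆ * t * (t * ⁅b, t⁆) := by rw [hti, mul_assoc (_ * t)]
        _ = ⁅b, t⁆ * t * (⁅b, t⁆ * t) := by rw [h5]
        _ = b * (t * t) * b⁻¹ := by rw [commutatorElement_def]; group
        _ = 1 := by rw [ht]; group
    refine ⟨b, hb, ?_⟩
    rcases h.uniq _ (hlt.le h4) h6 with e | e
    · exact absurd (commutatorElement_eq_one_iff_mul_comm.1 e) hbt
    · rw [← e, commutatorElement_def]; group
  · obtain ⟨b, hb, e⟩ := ih _ hlt (h.mono hlt.le) (h2.to_le hlt.le)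
      (le_norm_comm (zpowers_le.2 hn) le_normalizer (mem_zpowers t)) h3
    exact ⟨b, hlt.le hb, e⟩

theorem mem_of_sq (hQ : IsSylowIn 2 Q J) (hW : Q ≤ W) (ha : a ∈ J)
    (hn : a ∈ normalizer (Q : Set G)) (h2 : a * a ∈ W) : a ∈ W := by
  obtain ⟨u, v, hu, hv, e, ⟨k, hk⟩, hc⟩ := exists_p_parts (p := 2) a
  have h1 : v ^ 2 ∈ W := by
    obtain ⟨i, rfl⟩ := mem_zpowers_iff.1 hv
    rw [← zpow_natCast, ← zpow_mul, mul_comm, zpow_mul, zpow_natCast, pow_two]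
    exact zpow_mem h2 i
  rw [e]
  exact mul_mem (hW (hQ.mem_of_norm (zpowers_le.2 ha hu) hk (zpowers_le.2 hn hu)))
    (mem_of_pow_mem_of_coprime h1 hc)

theorem solv_of_cyc (hQ : IsSylowIn 2 Q J) (hc : IsCyclic Q) : Group.IsSolvable J := by
  obtain ⟨P, N, hN, hc⟩ := H6.npc_two_of_isCyclic hQ.toSylow
    (isCyclic_of_injective (subgroupOfEquivOfLe hQ.le).toMonoidHom
      (subgroupOfEquivOfLe hQ.le).injective)
  have h1 : Group.IsSolvable N :=
    S0205.result (Nat.odd_iff.2 (Nat.two_dvd_ne_zero.1 (hc.index_eq_card ▸ P.not_dvd_index)))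
  obtain ⟨k, hk⟩ := IsPGroup.iff_card.1 P.2
  have h2 := H4.isSolvable_of_isPGroup
    (IsPGroup.of_card (p := 2) (G := J ⧸ N) (hc.symm.index_eq_card.trans hk))
  exact Group.isSolvable_of_ker_le_range N.subtype (QuotientGroup.mk' N) (by simp)

theorem UI.tt (h : UI z J) (hJ : ⁅J, J⁆ = J) (hQ : IsSylowIn 2 Q J) {M : Subgroup G} (hM : M ≤ Q)
    (hi : M.relIndex Q = 2) (hz : z ∈ M) (ha : a ∈ J) (e : a * a = z) :
    ∃ g ∈ J, g * a * g⁻¹ ∈ M := by
  by_contra! hn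
  have hzJ := hQ.le (hM hz)
  obtain ⟨K, -, hK, hx⟩ := H87.thompson_transfer (H := Q.subgroupOf J) (M := M.subgroupOf J)
    (Nat.odd_iff.2 (Nat.two_dvd_ne_zero.1 hQ.not_dvd_relIndex))
    (by rw [relIndex_subgroupOf hQ.le, hi]) (x := ⟨a, ha⟩) (n := 2)
    (Subtype.ext (show a ^ 2 ^ 2 = 1 by
      rw [show 2 ^ 2 = 2 * 2 from rfl, pow_mul, pow_two a, e, pow_two, h.sq]))
    (fun g => hn g g.2) (fun g k hk _ => by
      obtain ⟨k, rfl⟩ := Nat.exists_eq_add_of_le hk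
      change (g : G) * a ^ 2 ^ (1 + k) * (g : G)⁻¹ ∈ M
      rw [pow_add, pow_one, pow_mul, pow_two a, e, ← conj_pow', h.conj hzJ (le_normalizer g.2)]
      exact pow_mem hz _)
  have h1 : ⁅J, J⁆ ≤ K.map J.subtype := commutator_le.2 fun x hx y hy =>
    ⟨⁅(⟨x, hx⟩ : J), ⟨y, hy⟩⁆, by
      simp only [commutatorElement_def, SetLike.mem_coe, mul_mem_iff_of_index_two hK, inv_mem_iff]
      tauto, rfl⟩
  rw [hJ] at h1
  exact hx (coe_mem_map_subtype.1 (h1 ha))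

theorem UI.rho (h : UI z J) (hJ : ⁅J, J⁆ = J) (hQ : IsSylowIn 2 Q J) (ha : a ∈ Q) (hb : b ∈ Q)
    (ea : a * a = z) (eb : b * b = z) (e : b * a * b⁻¹ = z * a)
    (hsq : ∀ p ∈ J, (∃ k : ℕ, p ^ 2 ^ k = 1) → p * a = a * p → p * p = 1 ∨ p * p = z) :
    ∃ r ∈ J, (r * a * r⁻¹ = b ∨ r * a * r⁻¹ = z * b) ∧
      ∃ c, (c = 1 ∨ c = z ∨ c = a ∨ c = z * a) ∧ r⁻¹ * a * r = b * c := by
  have haJ := hQ.le ha
  have hbJ := hQ.le hb
  have hzJ : z ∈ J := ea ▸ mul_mem haJ haJ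
  have hz : ∀ g ∈ J, g * z = z * g := fun g hg =>
    mul_inv_eq_iff_eq_mul.1 (h.conj hzJ (le_normalizer hg))
  have hz' : ∀ g ∈ J, ∀ x, g * (z * x) * g⁻¹ = z * (g * x * g⁻¹) := fun g hg x => by
    rw [← mul_assoc, hz g hg]; group
  have hzz : ∀ x, z * (z * x) = x := fun x => by rw [← mul_assoc, h.sq, one_mul]
  have hsqc : ∀ g ∈ J, ∀ x, x * x = z → g * x * g⁻¹ * (g * x * g⁻¹) = z := fun g hg x hx => by
    calc _ = g * (x * x) * g⁻¹ := by group
      _ = z := by rw [hx, hz g hg]; group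
  obtain ⟨m, hm, hi⟩ : ∃ m ∈ Q, (zpowers m).relIndex Q = 2 := by
    refine ((h.mono hQ.le).qs hQ.isPGroup).elim (fun hc => absurd ?_ h.ne) (·.2)
    have : b * a = a * b := congrArg Subtype.val (hc.isMulCommutative.1.1 (⟨b, hb⟩ : Q) ⟨a, ha⟩)
    rw [mul_inv_eq_iff_eq_mul.2 this] at e
    exact (right_eq_mul.1 e)
  have hzm : z ∈ zpowers m := by
    have := (mul_mem_iff_of_index_two hi (a := (⟨a, ha⟩ : Q)) (b := ⟨a, ha⟩)).2 Iff.rfl
    exact ea ▸ this
  obtain ⟨g, hg, h1⟩ := h.tt hJ hQ (zpowers_le.2 hm) hi hzm haJ ea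
  obtain ⟨g', hg', h2⟩ := h.tt hJ hQ (zpowers_le.2 hm) hi hzm hbJ eb
  obtain ⟨r, hr, h3⟩ : ∃ r ∈ J, r * a * r⁻¹ = b ∨ r * a * r⁻¹ = z * b := by
    refine ⟨g'⁻¹ * g, mul_mem (inv_mem hg') hg, ?_⟩
    have h4 : g'⁻¹ * g * a * (g'⁻¹ * g)⁻¹ = g'⁻¹ * (g * a * g⁻¹) * g'⁻¹⁻¹ := by group
    obtain ⟨i, hi⟩ := mem_zpowers_iff.1 h1
    obtain ⟨j, hj⟩ := mem_zpowers_iff.1 h2
    rcases h.eq_of_sq (conj_mem le_normalizer hg' hbJ) (conj_mem le_normalizer hg haJ)
      (by rw [← hi, ← hj, zpow_mul_comm]) ((hsqc g' hg' b eb).trans (hsqc g hg a ea).symm) with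
      h5 | h5 <;> rw [h4, h5]
    · left; group
    · right; rw [hz' _ (inv_mem hg')]; group
  have hab : a * b * a⁻¹ = z * b := by
    calc _ = a * (b * a * b⁻¹)⁻¹ * b * (a * a⁻¹) * (b⁻¹ * (b * a * b⁻¹) * b * a⁻¹) := by group
      _ = a * (z * a)⁻¹ * b := by rw [show b⁻¹ * (b * a * b⁻¹) * b * a⁻¹ = 1 by group, e]; group
      _ = z * b := by rw [← hz a haJ, mul_inv_rev, h.inv, ← hz _ (inv_mem haJ)]; group
  have hq : r⁻¹ * a * r * a * (r⁻¹ * a * r)⁻¹ = z * a := by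
    calc _ = r⁻¹ * (a * (r * a * r⁻¹) * a⁻¹) * r⁻¹⁻¹ := by group
      _ = r⁻¹ * (z * (r * a * r⁻¹)) * r⁻¹⁻¹ := by
        rcases h3 with h3 | h3 <;> rw [h3]
        · rw [hab]
        · rw [hz' a haJ, hab]
      _ = z * a := by rw [hz' _ (inv_mem hr)]; group
  have hN : ∀ g ∈ J, g * a * g⁻¹ = z * a → g ∈ J ⊓ normalizer (zpowers a : Set G) :=
    fun g hg h4 => ⟨hg, cj_eq_self_iff.1 (eq_of_le_of_card_ge (by
      rw [H83.cj, MonoidHom.map_zpowers, zpowers_le]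
      change g * a * g⁻¹ ∈ _
      rw [h4, ← ea]
      exact mul_mem (mul_mem (mem_zpowers a) (mem_zpowers a)) (mem_zpowers a)) (card_cj g _).ge)⟩
  have hqJ : r⁻¹ * a * r ∈ J := conj_mem' le_normalizer hr haJ
  obtain ⟨P, hP, hbP⟩ := exists_isSylowIn_ge (zpowers_le.2 (hN b hbJ e))
    (hQ.isPGroup.to_le (zpowers_le.2 hb))
  obtain ⟨n, hn, h5⟩ := hP.exists_conj_le (zpowers_le.2 (hN _ hqJ hq)) (isPGroup_zpowers (k := 2) (by
    have := hsqc _ (inv_mem hr) a ea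
    rw [inv_inv] at this
    rw [show 2 ^ 2 = 2 * 2 from rfl, pow_mul, pow_two (r⁻¹ * a * r), this, pow_two, h.sq]))
  have h6 : n * (r⁻¹ * a * r) * n⁻¹ ∈ P := h5 (conj_mem_cj (mem_zpowers _))
  have h7 : n⁻¹ * a * n = a ∨ n⁻¹ * a * n = z * a := by
    obtain ⟨i, hi⟩ := mem_zpowers_iff.1 (conj_mem' le_rfl hn.2 (mem_zpowers a))
    refine h.eq_of_sq haJ (conj_mem' le_normalizer hn.1 haJ) ?_ ?_
    · rw [← hi]; exact (Commute.self_zpow a i).eq
    · have := hsqc _ (inv_mem hn.1) a ea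
      rw [inv_inv] at this
      rw [this, ea]
  refine ⟨r * n⁻¹, mul_mem hr (inv_mem hn.1), ?_, b⁻¹ * (n * (r⁻¹ * a * r) * n⁻¹), ?_, by group⟩
  · rw [show r * n⁻¹ * a * (r * n⁻¹)⁻¹ = r * (n⁻¹ * a * n) * r⁻¹ by group]
    rcases h7 with h7 | h7 <;> rcases h3 with h3 | h3 <;> simp [h7, h3, hz' r hr, hzz]
  · have hcP := mul_mem (inv_mem (hbP (mem_zpowers b))) h6
    have hcJ := (hP.le hcP).1
    have h8 : n * (r⁻¹ * a * r) * n⁻¹ * a * (n * (r⁻¹ * a * r) * n⁻¹)⁻¹ = z * a := by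
      have h9 : n * a * n⁻¹ = n⁻¹ * a * n := by
        rcases h7 with h7 | h7
        · rw [h7]
          conv_lhs => rw [← h7]
          group
        · rw [← hzz (n * a * n⁻¹), ← hz' n hn.1, ← h7, show n * (n⁻¹ * a * n) * n⁻¹ = a by group,
            h7]
      calc _ = n * (r⁻¹ * a * r * (n⁻¹ * a * n) * (r⁻¹ * a * r)⁻¹) * n⁻¹ := by group
        _ = z * a := by
          rcases h7 with h7 | h7
          · rw [h7, hq, hz' n hn.1, h9, h7]
          · rw [h7, hz' _ hqJ, hq, hzz, h9, h7]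
    have hca : b⁻¹ * (n * (r⁻¹ * a * r) * n⁻¹) * a = a * (b⁻¹ * (n * (r⁻¹ * a * r) * n⁻¹)) := by
      rw [← mul_inv_eq_iff_eq_mul]
      calc _ = b⁻¹ * (n * (r⁻¹ * a * r) * n⁻¹ * a * (n * (r⁻¹ * a * r) * n⁻¹)⁻¹) * b := by group
        _ = a := by rw [h8, ← e]; group
    generalize b⁻¹ * (n * (r⁻¹ * a * r) * n⁻¹) = c at hcP hcJ hca
    rcases hsq c hcJ (isPGroup_iff.1 hP.isPGroup c hcP) hca with h9 | h9
    · exact (h.uniq c hcJ h9).imp_right Or.inl
    · exact Or.inr (Or.inr (h.eq_of_sq haJ hcJ hca.symm (ea.trans h9.symm)))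

end Cfsg.Agent.H18.Q2
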