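import Cfsg.Agent.H18.Q2A
import Cfsg.Agent.H52.Bar
import Cfsg.Agent.H52.LBalance

/-! Intrinsic `2`-components with a unique involution. -/

set_option autoImplicit false

namespace Cfsg.Agent.H18.Q2

open Subgroup Cfsg Cfsg.Agent.H83
open Cfsg.Agent.H52 (Opp Lp Dm)
open scoped commutatorElement

export Cfsg.Agent.H83 (cj)

variable {G : Type*} [Group G] {z t a b c g : G} {J K X S Q : Subgroup G}

/-- The centralizer of an element. -/
abbrev Cz (u : G) : Subgroup G := centralizer ({u} : Set G)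

/-- The elements of `C(u)` centralizing `X` modulo the core. -/
abbrev DD (u : G) (X : Subgroup G) : Subgroup G := Dm 2 (Cz u) X

theorem mem_Cz : g ∈ Cz z ↔ g * z = z * g := mem_centralizer_singleton_iff

theorem Cz_conj (h : g ∈ Cz z) : g * z * g⁻¹ = z := mul_inv_eq_iff_eq_mul.2 (mem_Cz.1 h)

theorem cj_Cz (g z : G) : cj g (Cz z) = Cz (g * z * g⁻¹) := by
  ext x
  rw [mem_cj, mem_Cz, mem_Cz]
  constructor <;> intro h
  · calc _ = g * (g⁻¹ * x * g * z) * g⁻¹ := by group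
      _ = _ := by rw [h]; group
  · calc _ = g⁻¹ * (x * (g * z * g⁻¹)) * g := by group
      _ = _ := by rw [h]; group

/-- `J` is a `2`-component of `C(z)` with unique involution `z`. -/
structure IC (z : G) (J : Subgroup G) : Prop extends UI z J where
  mem : z ∈ J
  pc : IsPComponentOf 2 J (Cz z)

theorem IC.le (h : IC z J) : J ≤ Cz z := h.pc.1

theorem IC.eq (h : IC z J) (h' : IC t K) (hz : z ∈ K) : z = t :=
  (h'.uniq z hz h.sq).resolve_left h.ne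

theorem mem_of_mul (hc : c ∈ X) (ho : g ∈ normalizer (X : Set G)) (h1 : (orderOf g).Coprime 2)
    (h2 : ∃ k : ℕ, (c * g) ^ 2 ^ k = 1) : c * g ∈ X := by
  obtain ⟨k, hk⟩ := h2
  have h3 : ∀ n : ℕ, (c * g) ^ n * (g ^ n)⁻¹ ∈ X := fun n => by
    induction n with
    | zero => simp
    | succ n ih =>
      have := mul_mem hc (conj_mem le_rfl ho ih)
      convert this using 1
      rw [pow_succ', pow_succ g]; group
  have h4 := h3 (orderOf g)
  rw [pow_orderOf_eq_one, inv_one, mul_one] at h4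
  exact mem_of_pelt_of_pow_mem hk h4 h1

variable [Finite G]

theorem Lp_cj (g : G) (H : Subgroup G) : cj g (Lp 2 H) = Lp 2 (cj g H) :=
  H52.map_Lp_of_injective H (MulAut.conj g).injective

theorem Lp_conj (h : a ∈ Lp 2 (Cz z)) (g : G) : g * a * g⁻¹ ∈ Lp 2 (Cz (g * z * g⁻¹)) := by
  rw [← cj_Cz, ← Lp_cj]; exact conj_mem_cj h

theorem eq_one_of_Opp {H : Subgroup G} (hS : IsPGroup 2 S) (h1 : g ∈ S) (h2 : g ∈ Opp 2 H) : g = 1 :=
  eq_one_of_mem_pgroup hS h1 (coprime_orderOf_of_mem (H3.map_pPrimeCore_coprime H) h2)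

theorem bal (hz : z * z = 1) (hc : z ∈ Cz t) : Lp 2 (Cz t ⊓ Cz z) ≤ Lp 2 (Cz t) := by
  rw [Cz, Cz, ← H52.centralizer_zpowers z]
  exact H52.Lp_two_inf_centralizer_le
    (isPGroup_zpowers (k := 1) (by rw [pow_one, pow_two, hz])) (zpowers_le.2 hc)

theorem IC.conj (h : IC z J) (g : G) : IC (g * z * g⁻¹) (cj g J) :=
  ⟨h.toUI.cj g, conj_mem_cj h.mem, cj_Cz g z ▸ H52.IsPComponentOf.cnj h.pc g⟩

theorem IC.conj' (h : IC z J) (hg : g ∈ Cz z) : IC z (cj g J) := by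
  have := h.conj g
  rwa [Cz_conj hg] at this

theorem IC.le_Lp (h : IC z J) : J ≤ Lp 2 (Cz z) := H52.IsPComponentOf.le_Lp h.pc

theorem IC.Lp_le (h : IC z J) : Lp 2 (Cz z) ≤ normalizer (J : Set G) :=
  H52.IsPComponentOf.Lp_le_normalizer h.pc

omit [Finite G] in
theorem IC.mem_DD (h : IC z J) : g ∈ DD z J ↔ g ∈ Cz z ∧ ∀ k ∈ J, ⁅k, g⁆ ∈ Opp 2 (Cz z) :=
  H52.mem_Dm_iff h.le

theorem IC.le_DD (h : IC z J) (h' : IC z K) (hne : J ≠ K) : K ≤ DD z J :=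
  (H52.le_Dm_iff h.le).2 ⟨h'.le, H52.IsPComponentOf.commutator_le_of_ne h.pc h'.pc hne⟩

omit [Finite G] in
theorem IC.z_DD (h : IC z J) : z ∈ DD z J :=
  H52.inf_centralizer_le_Dm h.le ⟨h.le h.mem, fun _ hj => mem_Cz.1 (h.le hj)⟩

theorem IC.comm (h : IC z J) (hS : IsPGroup 2 S) (ha : a ∈ S) (ha' : a ∈ J) (hg : g ∈ S)
    (hg' : g ∈ DD z J) : a * g = g * a :=
  commutatorElement_eq_one_iff_mul_comm.1 (eq_one_of_Opp hS
    (mul_mem (mul_mem (mul_mem ha hg) (inv_mem ha)) (inv_mem hg)) ((h.mem_DD.1 hg').2 a ha'))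

theorem IC.syl (h : IC z J) (hS : IsSylowIn 2 S (Cz z)) : IsSylowIn 2 (S ⊓ J) J :=
  hS.inf_subnIn (H52.IsPComponentOf.sn h.pc)

theorem IC.nc (h : IC z J) (hQ : IsSylowIn 2 Q J) : ¬ IsCyclic Q := fun hc =>
  (H52.IsPComponentOf.isPQS h.pc).not_isSolvable (solv_of_cyc hQ hc)

theorem IC.ctr (h : IC z J) (hS : IsPGroup 2 S) (hg : g ∈ S) (h1 : g ∈ J) (h2 : g ∈ DD z J) :
    g = 1 ∨ g = z := by
  by_contra! hn
  obtain ⟨Q, hQ, hgQ⟩ := exists_isSylowIn_ge (zpowers_le.2 h1) (hS.to_le (zpowers_le.2 hg))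
  have h3 := hgQ (mem_zpowers g)
  exact h.nc hQ ((h.toUI.mono hQ.le).cyc hQ.isPGroup h3
    (fun q hq => h.comm hQ.isPGroup hq (hQ.le hq) h3 h2) hn.1 hn.2)

theorem IC.int (h : IC z J) (h' : IC z K) (hne : J ≠ K) (hS : IsPGroup 2 S) (hg : g ∈ S)
    (h1 : g ∈ J) (h2 : g ∈ K) : g = 1 ∨ g = z := h.ctr hS hg h1 (h.le_DD h' hne h2)

theorem IC.DD_conj (h : IC z J) (ha : a ∈ DD z J) (g : G) :
    g * a * g⁻¹ ∈ DD (g * z * g⁻¹) (cj g J) := by
  obtain ⟨h1, h2⟩ := h.mem_DD.1 ha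
  refine (h.conj g).mem_DD.2 ⟨cj_Cz g z ▸ conj_mem_cj h1, ?_⟩
  rintro _ ⟨k, hk, rfl⟩
  rw [← cj_Cz, ← H52.map_Opp_of_injective _ (MulAut.conj g).injective]
  exact ⟨_, h2 k hk, map_commutatorElement _ _ _⟩

theorem IC.nDD (h : IC z J) (ha : a ∉ DD z J) (hg : g ∈ Cz z) (hga : g ∈ Cz a) :
    a ∉ DD z (cj g J) := fun h1 => ha (by
  have := (h.conj' hg).DD_conj h1 g⁻¹
  rwa [Cz_conj (inv_mem hg), Cz_conj (inv_mem hga), H83.cj_inv_cj] at this)

theorem IC.supp (h : IC z X) (hJ : IC z J) (hK : IC z K) (ha : a ∈ J) (hb : b ∈ K)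
    (hn : a * b ∉ DD z X) : X = J ∨ X = K := by
  by_contra! h1
  exact hn (mul_mem (h.le_DD hJ h1.1 ha) (h.le_DD hK h1.2 hb))

theorem IC.exists_four (h : IC z J) (hS : IsSylowIn 2 S (Cz z)) :
    ∃ d ∈ S, d ∈ J ∧ d * d = z := by
  have hQ := h.syl hS
  obtain ⟨c, hc, h1⟩ : ∃ c ∈ S ⊓ J, c ∉ zpowers z := by
    by_contra! h1
    exact h.nc hQ (isCyclic_of_injective (inclusion h1) (inclusion_injective _))
  obtain ⟨k, hk⟩ := isPGroup_iff.1 hQ.isPGroup c hc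
  induction k generalizing c with
  | zero => exact absurd (by rw [show c = 1 by simpa using hk]; exact one_mem _) h1
  | succ k ih =>
    by_cases h2 : c * c ∈ zpowers z
    · refine ⟨c, hc.1, hc.2, (H52.zpowers_cases_of_orderOf_eq_two h.ord h2).resolve_left
        (h.sq_ne hc.2 ?_ ?_)⟩ <;> rintro rfl
      exacts [h1 (one_mem _), h1 (mem_zpowers _)]
    · exact ih _ (mul_mem hc hc) h2 (by rw [← pow_two, ← pow_mul, ← pow_succ', hk])

theorem IC.diag (h : IC z J) (ht : t * t = 1) (hc : t ∈ Cz z) (hn : t ∉ normalizer (J : Set G))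
    (hS : IsPGroup 2 S) (htS : t ∈ S) (ha : a ∈ S) (ha' : a ∈ J) :
    a * (t * a * t⁻¹) ∈ Lp 2 (Cz z ⊓ Cz t) := by
  have hti : t⁻¹ = t := inv_eq_of_mul_eq_one_right ht
  have ho : orderOf t = 2 := orderOf_eq_prime (by rw [pow_two, ht]) (by rintro rfl; exact hn (one_mem _))
  have hne : J ≠ cj t J := fun e => hn (cj_eq_self_iff.1 e.symm)
  have h1 := h.comm hS ha ha' (conj_mem le_normalizer htS ha) (h.le_DD (h.conj' hc) hne (conj_mem_cj ha'))
  have hw : a * (t * a * t⁻¹) ∈ Cz z ⊓ Cz t := by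
    refine ⟨mul_mem (h.le ha') (conj_mem le_normalizer hc (h.le ha')), mem_Cz.2 ?_⟩
    rw [h1]
    calc _ = t * (a * (t⁻¹ * a * t)) := by group
      _ = t * (a * (t * a * t⁻¹)) := by rw [hti]
      _ = _ := by rw [h1]
  have ho' := H52.orderOf_qm hc ho
  have hb := H52.IsPComponentOf.isComponent_bar h.pc
  have hsr := H52.semiReg_zpowers_of_orderOf_eq_two (L := H52.bar 2 (Cz z) J) ho' (by
    rw [← H52.bar_cnj h.le hc, H52.commutator_bar_eq_bot_iff h.le (h.conj' hc).le]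
    exact H52.IsPComponentOf.commutator_le_of_ne h.pc (h.conj' hc).pc hne)
  have h2 := H52.IsComponentOf.isPComponentOf (p := 2)
    (hsr.isComponentOf_range_diag (H52.isComponentOf_top_iff.2 hb) (le_top.trans le_normalizer))
    (hsr.dvd_card_range_diag hb.2
      (H52.IsComponent.dvd_card_of_pPrimeCore_eq_bot (H52.pPrimeCore_Qt _) hb))
  have h3 := H52.IsPComponentOf.le_Lp h2 ⟨⟨_, H52.mem_bar (h.le ha') ha'⟩, rfl⟩
  rw [top_inf_eq, H52.centralizer_zpowers, ← H52.bar_inf_centralizer_singleton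
    (H52.isPGroup_zpowers_of_orderOf_eq_prime ho) hc, ← H52.Lp_bar inf_le_left,
    hsr.diag_apply_of_orderOf_eq_two ho'] at h3
  obtain ⟨c, hc1, hc2, e⟩ := H52.mem_bar_iff.1 h3
  have h4 : (⟨c, hc1⟩ : Cz z)⁻¹ * ⟨_, hw.1⟩ ∈ pPrimeCore 2 (Cz z) := QuotientGroup.eq.1 e
  have h5 := mem_of_mul hc2 (H52.le_normalizer_Lp _ (mul_mem (inv_mem (H52.Lp_le _ hc2)) hw))
    (coprime_orderOf_of_mem (H3.map_pPrimeCore_coprime (Cz z)) ⟨_, h4, rfl⟩)
  rw [mul_inv_cancel_left] at h5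
  exact h5 (isPGroup_iff.1 hS _ (mul_mem ha (conj_mem le_normalizer htS ha)))

theorem IC.zst (h : IC z J) (ht : t * t = 1) (h1 : t ≠ 1) (hzt : z ≠ t) (hc : t ∈ Cz z)
    (hn : t ∈ normalizer (J : Set G)) (hQ : IsSylowIn 2 Q J) (hQt : t ∈ centralizer (Q : Set G)) :
    t ∈ DD z J := by
  have hti : t⁻¹ = t := inv_eq_of_mul_eq_one_right ht
  have ho : orderOf t = 2 := orderOf_eq_prime (by rw [pow_two, ht]) h1
  have hQ' : Q ≤ Cz t := fun q hq => mem_Cz.2 (hQt q hq)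
  have key : ∀ j ∈ J, t * (j * t * j⁻¹) = j * t * j⁻¹ * t → j * t * j⁻¹ = t := fun j hj hc' => by
    have h2 : j * t * j⁻¹ * t⁻¹ ∈ J := by
      rw [mul_assoc, mul_assoc, ← mul_assoc t]
      exact mul_mem hj (conj_mem le_rfl hn (inv_mem hj))
    have h3 : j * t * j⁻¹ * t⁻¹ * (j * t * j⁻¹ * t⁻¹) = 1 := by
      calc _ = j * t * j⁻¹ * (t * (j * t * j⁻¹)) * t⁻¹ := by rw [hti]; group
        _ = j * (t * t) * j⁻¹ := by rw [hc']; group
        _ = 1 := by rw [ht]; group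
    refine (h.uniq _ h2 h3).elim mul_inv_eq_one.1 fun h4 => absurd ?_ h.ne
    have h5 : j * t * j⁻¹ = z * t := mul_inv_eq_iff_eq_mul.1 h4
    have h6 : j ∈ normalizer ((J ⊓ Cz t : Subgroup G) : Set G) := by
      refine cj_eq_self_iff.1 (eq_of_le_of_card_ge ?_ (card_cj j _).le).symm
      rw [cj_inf, cj_eq_self (le_normalizer hj), cj_Cz, h5]
      exact fun x hx => ⟨hx.1, mem_Cz.2 (by
        rw [← mul_assoc, mem_Cz.1 (h.le hx.1), mul_assoc, mem_Cz.1 hx.2, mul_assoc])⟩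
    obtain ⟨n, hn', u, hu, rfl⟩ := (hQ.mono (le_inf hQ.le hQ') inf_le_left).frattini h6
    have huJ : u ∈ J := (mul_mem_cancel_left (mem_inf.1 hn').1).1 hj
    have h7 : u * t * u⁻¹ = z * t := by
      calc _ = n⁻¹ * (n * u * t * (n * u)⁻¹) * n⁻¹⁻¹ := by group
        _ = n⁻¹ * z * n⁻¹⁻¹ * (n⁻¹ * t * n⁻¹⁻¹) := by rw [h5]; group
        _ = _ := by rw [Cz_conj (inv_mem (mem_inf.1 hn').2), Cz_conj (inv_mem (h.le hn'.1))]
    have h8 : u ∈ Cz t := mem_of_sq hQ hQ' huJ hu (mem_Cz.2 (mul_inv_eq_iff_eq_mul.1 (by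
      calc _ = u * (u * t * u⁻¹) * u⁻¹ := by group
        _ = u * (z * t) * u⁻¹ := by rw [h7]
        _ = u * z * u⁻¹ * (u * t * u⁻¹) := by group
        _ = t := by rw [Cz_conj (h.le huJ), h7, ← mul_assoc, h.sq, one_mul])))
    rw [Cz_conj h8] at h7
    exact right_eq_mul.1 h7
  have hY : t ∈ J ⊔ zpowers t := mem_sup_right (mem_zpowers t)
  have hiso : IsIsolatedInvolution (⟨t, hY⟩ : ↥(J ⊔ zpowers t)) := by
    refine ⟨by rwa [orderOf_mk], fun x hx => Subtype.ext ?_⟩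
    obtain ⟨j, hj, u, hu, e⟩ := (mem_sup_left_norm (zpowers_le.2 hn)).1 x.2
    have e' : (x : G) * t * (x : G)⁻¹ = j * t * j⁻¹ := by
      rw [← e]
      rcases H52.zpowers_cases_of_orderOf_eq_two ho hu with rfl | rfl <;> group
    have hx' : t * ((x : G) * t * (x : G)⁻¹) = (x : G) * t * (x : G)⁻¹ * t :=
      congrArg Subtype.val hx.eq
    change (x : G) * t * (x : G)⁻¹ = t
    rw [e'] at hx' ⊢
    exact key j hj hx'
  refine h.mem_DD.2 ⟨hc, fun k hk => ?_⟩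
  rw [← inv_mem_iff, commutatorElement_inv]
  refine (H52.IsPComponentOf.sn h.pc).Opp_le (H52.Opp_inf_le_Opp (le_sup_left (b := zpowers t))
    ⟨⟨_, H6.zstar _ hiso ⟨k, mem_sup_left hk⟩, rfl⟩, ?_⟩)
  exact J.mul_mem (conj_mem le_rfl hn hk) (J.inv_mem hk)

theorem IC.cover (h : IC z J) (hS : IsPGroup 2 S) (hB : S ≤ DD z J) :
    ∃ J0 : Subgroup G, IsPComponentOf 2 J0 (Cz z ⊓ centralizer (S : Set G)) ∧ J0 ≤ J ∧
      ∀ g ∈ J ⊓ centralizer (S : Set G), (∃ k : ℕ, g ^ 2 ^ k = 1) → g ∈ J0 := by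
  obtain ⟨h1, h2⟩ := H52.IsPComponentOf.Lp_inf_centralizer h.pc hS hB
  refine ⟨_, h1, h2.1, fun g hg ⟨k, hk⟩ => ?_⟩
  rw [(H52.IsPComponentOf.isPQS h.pc).Lp_eq_of_covers (h2.of_le (H52.Lp_le _) inf_le_left)]
  obtain ⟨l, -, hl⟩ := (Nat.dvd_prime_pow Nat.prime_two).1 (orderOf_dvd_of_pow_eq_one hk)
  exact H52.mem_pElementClosure hg hl

theorem IC.cover1 (h : IC z J) (ht : t * t = 1) (hB : t ∈ DD z J) :
    ∃ J0 : Subgroup G, IsPComponentOf 2 J0 (Cz z ⊓ Cz t) ∧ J0 ≤ J ∧ z ∈ J0 := by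
  obtain ⟨J0, h1, h2, h3⟩ := h.cover
    (isPGroup_zpowers (x := t) (k := 1) (by rw [pow_one, pow_two, ht])) (zpowers_le.2 hB)
  rw [H52.centralizer_zpowers] at h1 h3
  exact ⟨J0, h1, h2, h3 z ⟨h.mem, mem_Cz.2 (mem_Cz.1 (h.mem_DD.1 hB).1).symm⟩
    ⟨1, by rw [pow_one, pow_two, h.sq]⟩⟩

theorem IC.proj (h : IC z J) (ht : t * t = 1) (hc : t ∈ Cz z) (hn : t ∈ normalizer (J : Set G))
    (hs : Group.IsSolvable ↥(J ⊓ Cz t)) : Lp 2 (Cz z ⊓ Cz t) ≤ DD z J := by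
  have hp : IsPGroup 2 (zpowers t) := isPGroup_zpowers (k := 1) (by rw [pow_one, pow_two, ht])
  have hD := H52.inf_normalizer_le_normalizer_Dm (p := 2) h.le
  have hJD : J ≤ normalizer (DD z J : Set G) :=
    (le_inf (le_norm_of_le h.le) le_normalizer).trans hD
  have htD : zpowers t ≤ normalizer (DD z J : Set G) :=
    zpowers_le.2 (hD ⟨le_normalizer hc, hn⟩)
  have hO : normalizer (J : Set G) ≤ normalizer (Opp 2 J : Set G) :=
    H52.normalizer_le_normalizer_map_pPrimeCore J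
  have hOD : Opp 2 J ≤ DD z J := (H52.le_Dm_iff h.le).2 ⟨(H52.Opp_le J).trans h.le,
    (comm_le_right (H52.le_normalizer_Opp J)).trans (H52.IsPComponentOf.sn h.pc).Opp_le⟩
  have hL := H52.commutator_Lp_self (p := 2) (Cz z ⊓ Cz t)
  obtain ⟨F, hF⟩ : ∃ F, F = centMod J (zpowers t) (DD z J) hJD := ⟨_, rfl⟩
  have hFJ : F ≤ J := hF ▸ centMod_le
  have h1 : Lp 2 (Cz z ⊓ Cz t) ≤ F ⊔ DD z J := fun l hl => by
    have h2 : Lp 2 (Cz z) ≤ J ⊔ DD z J := H52.Lp_le_iff'.2 fun L hL => by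
      by_cases e : J = L
      · exact e ▸ le_sup_left
      · exact le_sup_of_le_right ((H52.le_Dm_iff h.le).2
          ⟨hL.1, H52.IsPComponentOf.commutator_le_of_ne h.pc hL e⟩)
    obtain ⟨d, hd, x, hx, rfl⟩ := (mem_sup_right_norm' hJD).1 (h2 (bal ht hc hl))
    refine mul_mem (mem_sup_right hd) (mem_sup_left (hF ▸ mem_centMod.2 ⟨hx, fun u hu => ?_⟩))
    have h3 : u * (d * x) = d * x * u :=
      (H52.centralizer_zpowers t).ge (H52.Lp_le _ hl).2 u hu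
    have h4 : ⁅u, x⁆ = u * d⁻¹ * u⁻¹ * d := by
      calc _ = u * d⁻¹ * (d * x * u) * u⁻¹ * u⁻¹ * x⁻¹ := by rw [commutatorElement_def]; group
        _ = u * d⁻¹ * u⁻¹ * (u * (u * (d * x)) * u⁻¹ * u⁻¹) * x⁻¹ := by rw [← h3]; group
        _ = _ := by rw [h3, ← mul_assoc u, h3]; group
    rw [h4]
    exact mul_mem (conj_mem htD hu (inv_mem hd)) hd
  have h2 : ⁅⁅zpowers t, F⁆, F⁆ ≤ Opp 2 J := by
    rw [commutator_comm]
    exact (commutator_mono hFJ (le_centMod.1 hF.le).2).trans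
      (H52.IsPComponentOf.commutator_Dm_le h.pc)
  have h3 : ⁅⁅F, F⁆, zpowers t⁆ ≤ Opp 2 J :=
    three_subgroups (hFJ.trans (H52.le_normalizer_Opp J)) (hFJ.trans (H52.le_normalizer_Opp J))
      (zpowers_le.2 (hO hn)) (by rwa [commutator_comm F]) h2
  have h4 : ⁅F, F⁆ ≤ DD z J ⊔ J ⊓ Cz t := fun x hx => by
    obtain ⟨n, hn', hc'⟩ := H4.exists_centralizer_of_fixed_mod (k := x) (zpowers_le.2 (hO hn))
      (H4.coprime_card_of_isPGroup (H3.map_pPrimeCore_coprime J) hp).symm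
      (Or.inl (H4.isSolvable_of_isPGroup hp)) fun u hu => by
        rw [← inv_mem_iff, commutatorElement_inv]
        exact h3 (commutator_mem_commutator hx hu)
    rw [← inv_mul_cancel_left n x]
    exact mul_mem (mem_sup_left (inv_mem (hOD hn'))) (mem_sup_right
      ⟨mul_mem (H52.Opp_le J hn') (hFJ (comm_le_left le_normalizer hx)),
        (H52.centralizer_zpowers t).le hc'⟩)
  refine H52.le_of_perfect_of_le_sup hL hs (inf_le_left.trans hJD) (hL.ge.trans ?_)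
  have h5 : F ⊔ DD z J ≤ normalizer ((DD z J ⊔ ⁅F, F⁆ : Subgroup G) : Set G) :=
    sup_le (le_norm_sup (hFJ.trans hJD) (le_norm_comm le_normalizer le_normalizer))
      (le_norm_of_le le_sup_left)
  refine (commutator_mono h1 h1).trans (le_trans ?_ (sup_le le_sup_left h4))
  refine comm_sup_left_le (comm_sup_right_le le_sup_right ?_ h5) ?_ h5
  · exact (comm_le_right (hFJ.trans hJD)).trans le_sup_left
  · exact (comm_le_left (sup_le (hFJ.trans hJD) le_normalizer)).trans le_sup_left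

end Cfsg.Agent.H18.Q2
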