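import Cfsg.Agent.H18.Q2B

/-! Pairs of intrinsic `2`-components: the easy cases and the critical configuration. -/

set_option autoImplicit false

namespace Cfsg.Agent.H18.Q2

open Subgroup Cfsg Cfsg.Agent.H83
open Cfsg.Agent.H52 (Opp Lp Dm)
open scoped commutatorElement

variable {G : Type*} [Group G] {z t y g u v : G} {J K X T S S' P : Subgroup G}

theorem cm (g u v : G) : g * (u * v) * g⁻¹ = g * u * g⁻¹ * (g * v * g⁻¹) := by group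

theorem cc (g h u : G) : g * h * u * (g * h)⁻¹ = g * (h * u * h⁻¹) * g⁻¹ := by group

theorem ci (g u : G) : g * u⁻¹ * g⁻¹ = (g * u * g⁻¹)⁻¹ := by group

theorem fx (h : g * u = u * g) : g * u * g⁻¹ = u := mul_inv_eq_iff_eq_mul.2 h

theorem xf (h : g * u * g⁻¹ = u) : g * u = u * g := mul_inv_eq_iff_eq_mul.1 h

theorem cinv (h : g * u * g⁻¹ = v) : g⁻¹ * v * g⁻¹⁻¹ = u := by rw [← h]; group

/-- Compatible Sylow subgroups of `C(z, t)`, `C(z)` and `C(t)`. -/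
structure Tri (z t : G) (T S S' : Subgroup G) : Prop where
  sT : IsSylowIn 2 T (Cz z ⊓ Cz t)
  sS : IsSylowIn 2 S (Cz z)
  sS' : IsSylowIn 2 S' (Cz t)
  le : T ≤ S
  le' : T ≤ S'

theorem exists_tri (hP : IsPGroup 2 P) (h : P ≤ Cz z ⊓ Cz t) :
    ∃ T S S', Tri z t T S S' ∧ P ≤ T := by
  obtain ⟨T, hT, h1⟩ := exists_isSylowIn_ge h hP
  obtain ⟨S, hS, h2⟩ := exists_isSylowIn_ge (hT.le.trans inf_le_left) hT.isPGroup
  obtain ⟨S', hS', h3⟩ := exists_isSylowIn_ge (hT.le.trans inf_le_right) hT.isPGroup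
  exact ⟨T, S, S', ⟨hT, hS, hS', h2, h3⟩, h1⟩

theorem Tri.symm (h : Tri z t T S S') : Tri t z T S' S :=
  ⟨inf_comm (Cz z) (Cz t) ▸ h.sT, h.sS', h.sS, h.le', h.le⟩

theorem Tri.mem (h : Tri z t T S S') (hg : g ∈ S) (hc : g * t * g⁻¹ = t) : g ∈ T :=
  (h.sT.max (S ⊓ Cz t) (inf_le_inf_right _ h.sS.le) h.sS.isPGroup.to_inf_left
    (le_inf h.le (h.sT.le.trans inf_le_right))).le ⟨hg, mem_Cz.2 (xf hc)⟩

theorem Tri.cz (h : Tri z t T S S') (hg : g ∈ S) : g * z * g⁻¹ = z := Cz_conj (h.sS.le hg)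

theorem Tri.ct (h : Tri z t T S S') (hg : g ∈ S') : g * t * g⁻¹ = t := Cz_conj (h.sS'.le hg)

theorem Tri.zT (h : Tri z t T S S') (hz : z * z = 1) (hc : z * t = t * z) : z ∈ T :=
  h.mem (h.sS.mem_of_norm (mem_Cz.2 rfl) (k := 1) (by rw [pow_one, pow_two, hz])
    (le_norm_of_le_cent le_rfl fun _ hs => mem_Cz.1 (h.sS.le hs))) (fx hc)

variable [Finite G]

theorem caseA (hJ : IC z J) (hK : IC t K) (hy : y ∈ K) (e : y * y = t) (hc : y ∈ Cz z) :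
    t ∈ normalizer (J : Set G) := by
  by_contra hn
  obtain ⟨S, hS, hyS⟩ := exists_isSylowIn_ge (zpowers_le.2 hc) (isPGroup_zpowers (p := 2) (k := 2)
    (by rw [show 2 ^ 2 = 2 * 2 from rfl, pow_mul, pow_two y, e, pow_two, hK.sq]))
  replace hyS := hyS (mem_zpowers y)
  have htS : t ∈ S := e ▸ mul_mem hyS hyS
  have htc := hS.le htS
  obtain ⟨d, hd, hdJ, hdd⟩ := hJ.exists_four hS
  have hw := hJ.diag hK.sq htc hn hS.isPGroup htS hd hdJ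
  have hwS := mul_mem hd (conj_mem le_normalizer htS hd)
  have hD : ∀ g ∈ Cz z, g ∉ normalizer (J : Set G) → g * d * g⁻¹ ∈ DD z J := fun g hg hg' =>
    hJ.le_DD (hJ.conj' hg) (fun e => hg' (cj_eq_self_iff.1 e.symm)) (conj_mem_cj hdJ)
  have h1 := hD y hc fun h => hn (e ▸ mul_mem h h)
  have h2 := hD (y * t) (mul_mem hc htc) fun h => hn (by
    have := mul_mem h h
    rwa [mul_assoc, ← mul_assoc t, ← mem_Cz.1 (hK.le hy), mul_assoc y t, hK.sq, mul_one, e] at this)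
  have h3 := hD t htc hn
  have h4 : d * (t * d * t⁻¹) * y * (d * (t * d * t⁻¹))⁻¹ * y⁻¹ = 1 := by
    generalize d * (t * d * t⁻¹) = w at hw hwS
    by_contra h0
    have hwK : w ∈ normalizer (K : Set G) :=
      hK.Lp_le (bal hJ.sq (mem_Cz.2 (mem_Cz.1 htc).symm) (inf_comm (Cz z) (Cz t) ▸ hw))
    obtain ⟨k, hk⟩ := isPGroup_iff.1 hS.isPGroup _
      (mul_mem (conj_mem le_normalizer hwS hyS) (inv_mem hyS))
    refine hn (zpowers_le.2 (hJ.Lp_le ?_)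
      (hK.pow (mul_mem (conj_mem le_rfl hwK hy) (inv_mem hy)) hk h0))
    rw [mul_assoc, mul_assoc, ← mul_assoc y]
    exact mul_mem (bal hK.sq htc hw)
      (conj_mem (H52.le_normalizer_Lp _) hc (inv_mem (bal hK.sq htc hw)))
  have h5 : d = y * d * y⁻¹ * (y * t * d * (y * t)⁻¹) * (t * d * t⁻¹)⁻¹ := by
    calc d = d * (t * d * t⁻¹) * y * (d * (t * d * t⁻¹))⁻¹ * y⁻¹ *
        (y * d * y⁻¹ * (y * t * d * (y * t)⁻¹) * (t * d * t⁻¹)⁻¹) := by group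
      _ = _ := by rw [h4, one_mul]
  rcases hJ.ctr hS.isPGroup hd hdJ (h5 ▸ mul_mem (mul_mem h1 h2) (inv_mem h3)) with h6 | h6 <;>
    rw [h6] at hdd
  · exact hJ.ne (by rw [← hdd, one_mul])
  · exact hJ.ne (hdd.symm.trans hJ.sq)

theorem caseB0 (hJ : IC z J) (hK : IC t K) (hzt : z ≠ t) (hy : y ∈ K) (hc : y ∈ Cz z)
    (hD : t ∈ DD z J) : y ∈ normalizer (J : Set G) := by
  obtain ⟨J0, h1, h2, h3⟩ := hJ.cover1 hK.sq hD
  have htc := (hJ.mem_DD.1 hD).1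
  have h4 : J0 ≤ normalizer (K : Set G) := (H52.IsPComponentOf.le_Lp h1).trans
    (((inf_comm (Cz z) (Cz t)) ▸ bal hJ.sq (mem_Cz.2 (mem_Cz.1 htc).symm)).trans hK.Lp_le)
  have h5 : K ⊓ Cz z ≤ Cz z ⊓ Cz t := le_inf inf_le_right (inf_le_left.trans hK.le)
  rcases H52.IsPComponent.le_or_commutator_le' h1.1 h1.2 h5
    (le_norm_inf h4 (le_norm_of_le (h2.trans hJ.le))) with h6 | h6
  · exact absurd (hJ.eq hK (h6 h3).1) hzt
  have h7 := H52.IsPComponentOf.Dm_le_normalizer h1 ((H52.le_Dm_iff h1.1).2 ⟨h5, h6⟩ ⟨hy, hc⟩)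
  by_contra hn
  have h8 : J0 ≤ DD z J := ((cj_eq_self h7).ge.trans (cj_mono y h2)).trans
    (hJ.le_DD (hJ.conj' hc) fun e => hn (cj_eq_self_iff.1 e.symm))
  refine H52.IsPComponentOf.not_le_Opp h1 (Cz z) ?_
  rw [← H52.IsPComponentOf.commutator_self h1]
  exact (commutator_mono h2 le_rfl).trans ((H52.le_Dm_iff hJ.le).1 h8).2

/-- The critical configuration. -/
structure Cf (z t y b₁ x : G) (J K T S S' : Subgroup G) : Prop extends Tri z t T S S' where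
  hJ : IC z J
  hK : IC t K
  ne : z ≠ t
  yT : y ∈ T
  yK : y ∈ K
  yn : y ∉ normalizer (J : Set G)
  yy : y * y = t
  tn : t ∈ normalizer (J : Set G)
  tD : t ∉ DD z J
  zD : z ∉ DD t K
  bS : b₁ ∈ S
  bJ : b₁ ∈ J
  bt : b₁ * t * b₁⁻¹ = z * t
  bT : b₁ * (y * b₁ * y⁻¹) ∈ T
  by' : b₁ * (y * b₁ * y⁻¹) * y * (b₁ * (y * b₁ * y⁻¹))⁻¹ = z * y
  bn : b₁ * (y * b₁ * y⁻¹) ∉ normalizer (K : Set G)
  xS : x ∈ S'
  xK : x ∈ K
  xz : x * z * x⁻¹ = t * z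

theorem exists_cf (hJ : IC z J) (hK : IC t K) (hzt : z ≠ t) (hy : y ∈ K) (hc : y ∈ Cz z)
    {k : ℕ} (hk : y ^ 2 ^ k = 1) (h1 : y ≠ 1) (h2 : y ≠ t) (hn : y ∉ normalizer (J : Set G))
    (hn2 : y * y ∈ normalizer (J : Set G)) : ∃ b₁ x T S S', Cf z t y b₁ x J K T S S' := by
  obtain ⟨T, S, S', h, hyT⟩ := exists_tri (isPGroup_zpowers hk) (zpowers_le.2 ⟨hc, hK.le hy⟩)
  replace hyT := hyT (mem_zpowers y)
  have hyS := h.le hyT
  have hyy := hK.sq_ne hy h1 h2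
  have ht : t ∈ zpowers (y * y) := (hK.toUI.mono (zpowers_le.2 (mul_mem hy hy))).mem le_rfl
    (h.sT.isPGroup.to_le (zpowers_le.2 (mul_mem hyT hyT))) (mem_zpowers _) hyy
  have htT : t ∈ T := zpowers_le.2 (mul_mem hyT hyT) ht
  have htn := zpowers_le.2 hn2 ht
  have htD : t ∉ DD z J := fun hD => hn (caseB0 hJ hK hzt hy hc hD)
  have hzc := xf (h.cz (h.le htT))
  have hzT := h.zT hJ.sq hzc.symm
  obtain ⟨b₁, ⟨hbS, hbJ⟩, hbt⟩ := (hJ.toUI.mono inf_le_right).flip (hJ.syl h.sS).isPGroup hK.sq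
    (le_norm_inf (H := S ⊓ normalizer (J : Set G)) (le_norm_of_le inf_le_left) inf_le_right
      ⟨h.le htT, htn⟩)
    fun h3 => htD (hJ.zst hK.sq hK.ne hzt (h.sS.le (h.le htT)) htn (hJ.syl h.sS) h3)
  have hJ2 := hJ.conj' hc
  have hne : J ≠ cj y J := fun e => hn (cj_eq_self_iff.1 e.symm)
  have hyt := h.ct (h.le' hyT)
  obtain ⟨b₂, hb₂⟩ : ∃ b₂, b₂ = y * b₁ * y⁻¹ := ⟨_, rfl⟩
  have hb₂S : b₂ ∈ S := hb₂ ▸ conj_mem le_normalizer hyS hbS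
  have hb₂D : b₂ ∈ DD z J := hJ.le_DD hJ2 hne (hb₂ ▸ conj_mem_cj hbJ)
  have hb₂t : b₂ * t * b₂⁻¹ = z * t := by
    calc _ = y * (b₁ * (y⁻¹ * t * y⁻¹⁻¹) * b₁⁻¹) * y⁻¹ := by rw [hb₂]; group
      _ = _ := by rw [cinv hyt, hbt, cm, h.cz hyS, hyt]
  have hbT : b₁ * b₂ ∈ T := h.mem (mul_mem hbS hb₂S) (by
    rw [cc, hb₂t, cm, h.cz hbS, hbt, ← mul_assoc, hJ.sq, one_mul])
  have hβS := conj_mem le_normalizer (mul_mem hyS hyS) (inv_mem hbS)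
  have hβJ := conj_mem le_rfl hn2 (inv_mem hbJ)
  have e1 : b₁ * b₂ * y * (b₁ * b₂)⁻¹ * y⁻¹ = b₁ * (y * y * b₁⁻¹ * (y * y)⁻¹) := by
    calc _ = b₁ * (b₂ * (y * y * b₁⁻¹ * (y * y)⁻¹) * b₂⁻¹) := by rw [hb₂]; group
      _ = _ := by rw [fx (hJ.comm h.sS.isPGroup hβS hβJ hb₂S hb₂D).symm]
  have hcJ : b₁ * b₂ * y * (b₁ * b₂)⁻¹ * y⁻¹ ∈ J := e1 ▸ mul_mem hbJ hβJ
  have hcT : b₁ * b₂ * y * (b₁ * b₂)⁻¹ * y⁻¹ ∈ T :=
    mul_mem (conj_mem le_normalizer hbT hyT) (inv_mem hyT)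
  have hc1 : b₁ * b₂ * y * (b₁ * b₂)⁻¹ * y⁻¹ ≠ 1 := fun e => by
    have h3 : y * y ∈ Cz b₁ := mem_Cz.2 (xf (by
      rw [e1] at e
      rw [← inv_inj, ← ci, eq_inv_of_mul_eq_one_right e]))
    rw [fx (mem_Cz.1 (zpowers_le.2 h3 ht)).symm] at hbt
    exact hJ.ne (right_eq_mul.1 hbt)
  have hbn : b₁ * b₂ ∉ normalizer (K : Set G) := fun h3 => by
    obtain ⟨l, hl⟩ := isPGroup_iff.1 h.sT.isPGroup _ hcT
    exact hzt (hK.eq hJ (zpowers_le.2 hcJ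
      (hK.pow (mul_mem (conj_mem le_rfl h3 hy) (inv_mem hy)) hl hc1))).symm
  generalize hb : b₁ * b₂ = b at hbT hcJ hcT hc1 hbn
  have hK2 := hK.conj' (h.sT.le hbT).2
  have hneK : K ≠ cj b K := fun e => hbn (cj_eq_self_iff.1 e.symm)
  have hD2 := hK.le_DD hK2 hneK (conj_mem_cj hy)
  have h3 := hK.comm h.sT.isPGroup hyT hy (conj_mem le_normalizer hbT hyT) hD2
  have h4 : b * y * b⁻¹ = z * y := mul_inv_eq_iff_eq_mul.1
    ((hJ.int hJ2 hne h.sT.isPGroup hcT hcJ (by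
      have := conj_mem_cj (g := y) hcJ
      rwa [cm, fx h3, mul_inv_cancel, one_mul] at this)).resolve_left hc1)
  have h5 : y * y = t := (hK.int hK2 hneK h.sT.isPGroup (mul_mem hyT hyT) (mul_mem hy hy) (by
    have := mul_mem (conj_mem_cj (g := b) hy) (conj_mem_cj (g := b) hy)
    rwa [h4, mul_assoc, ← mul_assoc y, xf (h.cz hyS), ← mul_assoc, ← mul_assoc, hJ.sq,
      one_mul] at this)).resolve_left hyy
  have hzD : z ∉ DD t K := fun h6 => by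
    rw [h4] at hD2
    exact (hK.ctr h.sT.isPGroup hyT hy ((mul_mem_cancel_left h6).1 hD2)).elim h1 h2
  have hzn : z ∈ normalizer (K : Set G) := hK.Lp_le
    ((mul_mem_cancel_right (hK.le_Lp hy)).1 (h4 ▸ hK2.le_Lp (conj_mem_cj hy)))
  obtain ⟨x, ⟨hxS, hxK⟩, hx⟩ := (hK.toUI.mono inf_le_right).flip (hK.syl h.sS').isPGroup hJ.sq
    (le_norm_inf (H := S' ⊓ normalizer (K : Set G)) (le_norm_of_le inf_le_left) inf_le_right
      ⟨h.le' hzT, hzn⟩)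
    fun h6 => hzD (hK.zst hJ.sq hJ.ne hzt.symm (h.sT.le hzT).2 hzn (hK.syl h.sS') h6)
  subst hb hb₂
  exact ⟨b₁, x, T, S, S', h, hJ, hK, hzt, hyT, hy, hn, h5, htn, htD, hzD, hbS, hbJ, hbt, hbT, h4,
    hbn, hxS, hxK, hx⟩

end Cfsg.Agent.H18.Q2
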