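import Cfsg.Agent.H18.Q2C

/-! The critical configuration: first consequences. -/

set_option autoImplicit false

namespace Cfsg.Agent.H18.Q2

open Subgroup Cfsg Cfsg.Agent.H83
open Cfsg.Agent.H52 (Opp Lp Dm)
open scoped commutatorElement

variable {G : Type*} [Group G] {z t y b₁ x u v a a' : G} {J K X T S S' : Subgroup G}

local notation "bb" => b₁ * (y * b₁ * y⁻¹)

namespace Cf

theorem tT (h : Cf z t y b₁ x J K T S S') : t ∈ T := h.yy ▸ mul_mem h.yT h.yT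

theorem tz (h : Cf z t y b₁ x J K T S S') : t * z = z * t := xf (h.cz (h.le h.tT))

theorem zT' (h : Cf z t y b₁ x J K T S S') : z ∈ T := h.zT h.hJ.sq h.tz.symm

theorem zl (h : Cf z t y b₁ x J K T S S') (hu : u ∈ S) (v : G) : u * (z * v) = z * (u * v) := by
  rw [← mul_assoc, xf (h.cz hu), mul_assoc]

theorem tl (h : Cf z t y b₁ x J K T S S') (hu : u ∈ S') (v : G) : u * (t * v) = t * (u * v) := by
  rw [← mul_assoc, xf (h.ct hu), mul_assoc]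

theorem zz (h : Cf z t y b₁ x J K T S S') (v : G) : z * (z * v) = v := by
  rw [← mul_assoc, h.hJ.sq, one_mul]

theorem tt (h : Cf z t y b₁ x J K T S S') (v : G) : t * (t * v) = v := by
  rw [← mul_assoc, h.hK.sq, one_mul]

theorem zy2 (h : Cf z t y b₁ x J K T S S') : z * y * (z * y) = t := by
  rw [mul_assoc, h.zl (h.le h.yT), h.zz, h.yy]

theorem zyK (h : Cf z t y b₁ x J K T S S') : z * y ∈ cj bb K := h.by' ▸ conj_mem_cj h.yK

theorem neJ (h : Cf z t y b₁ x J K T S S') : J ≠ cj y J := fun e => h.yn (cj_eq_self_iff.1 e.symm)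

theorem neK (h : Cf z t y b₁ x J K T S S') : K ≠ cj bb K := fun e => h.bn (cj_eq_self_iff.1 e.symm)

theorem back (h : Cf z t y b₁ x J K T S S') (hu : u ∈ J) : y⁻¹ * u * y ∈ cj y J := by
  rw [mem_cj, show y⁻¹ * (y⁻¹ * u * y) * y = (y * y)⁻¹ * u * (y * y) by group, h.yy]
  exact conj_mem' le_rfl h.tn hu

theorem yinv (h : Cf z t y b₁ x J K T S S') : y⁻¹ = t * y :=
  inv_eq_of_mul_eq_one_right (by rw [h.tl (h.le' h.yT), h.yy, h.hK.sq])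

theorem inv4 (h : Cf z t y b₁ x J K T S S') (hu : u ∈ S) (e : u * u = z) : u⁻¹ = z * u :=
  inv_eq_of_mul_eq_one_right (by rw [h.zl hu, e, h.hJ.sq])

theorem inv4' (h : Cf z t y b₁ x J K T S S') (hu : u ∈ S') (e : u * u = t) : u⁻¹ = t * u :=
  inv_eq_of_mul_eq_one_right (by rw [h.tl hu, e, h.hK.sq])

variable [Finite G]

theorem hJ2 (h : Cf z t y b₁ x J K T S S') : IC z (cj y J) := h.hJ.conj' (h.sT.le h.yT).1

theorem hK2 (h : Cf z t y b₁ x J K T S S') : IC t (cj bb K) := h.hK.conj' (h.sT.le h.bT).2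

theorem cQ (h : Cf z t y b₁ x J K T S S') (h1 : u ∈ S) (h2 : u ∈ J) (h3 : v ∈ S) (h4 : v ∈ cj y J) :
    u * v = v * u := h.hJ.comm h.sS.isPGroup h1 h2 h3 (h.hJ.le_DD h.hJ2 h.neJ h4)

theorem cR (h : Cf z t y b₁ x J K T S S') (h1 : u ∈ S') (h2 : u ∈ K) (h3 : v ∈ S')
    (h4 : v ∈ cj bb K) : u * v = v * u :=
  h.hK.comm h.sS'.isPGroup h1 h2 h3 (h.hK.le_DD h.hK2 h.neK h4)

theorem suppK (h : Cf z t y b₁ x J K T S S') (hX : IC t X) (hn : z ∉ DD t X) :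
    X = cj bb K ∨ X = K :=
  hX.supp h.hK2 h.hK h.zyK (inv_mem h.yK) (by rwa [mul_inv_cancel_right])

theorem xy (h : Cf z t y b₁ x J K T S S') : x * y * x⁻¹ = t * y := by
  have h1 := fx (h.cR h.xS h.xK (h.le' (mul_mem h.zT' h.yT)) h.zyK)
  rw [cm, h.xz, h.tz, mul_assoc, mul_right_inj] at h1
  rw [← h.tt (x * y * x⁻¹), h1]

theorem cK (h : Cf z t y b₁ x J K T S S') (h1 : u ∈ T) (h2 : u ∈ K) : y * u = u * y := by
  have h3 := h.cR (h.le' h1) h2 (h.le' (mul_mem h.zT' h.yT)) h.zyK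
  rw [h.zl (h.le h1), mul_assoc, mul_right_inj] at h3
  exact h3.symm

theorem cK2 (h : Cf z t y b₁ x J K T S S') (h1 : u ∈ T) (h2 : u ∈ cj bb K) :
    z * y * u = u * (z * y) := by
  rw [h.zl (h.le h1), mul_assoc, h.cR (h.le' h.yT) h.yK (h.le' h1) h2]

theorem sqJ (h : Cf z t y b₁ x J K T S S') (h1 : u ∈ T) (h2 : u ∈ J) : u * u = 1 ∨ u * u = z := by
  have h3 : u * y * u⁻¹ ∈ T := conj_mem le_normalizer h1 h.yT
  have h4 : u * y * u⁻¹ * (u * y * u⁻¹) = t := by rw [← cm, h.yy, h.ct (h.le' h1)]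
  have h5 : u * y * u⁻¹ * y⁻¹ * (u * y * u⁻¹ * y⁻¹) = 1 := by
    have h6 := conj_mem_cj (g := u) h.yK
    rcases h.suppK (h.hK.conj' (h.sT.le h1).2) (h.hK.nDD h.zD (h.sT.le h1).2 (h.sT.le h1).1) with
      e | e <;> rw [e] at h6
    · rcases h.hK2.eq_of_sq h.zyK h6 (h.cK2 h3 h6) (h.zy2.trans h4.symm) with e | e <;> rw [e]
      · rw [mul_inv_cancel_right, h.hJ.sq]
      · rw [← mul_assoc t, mul_inv_cancel_right, mul_assoc, h.tl (h.le' h.zT'), h.tt, h.hJ.sq]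
    · rcases h.hK.eq_of_sq h.yK h6 (h.cK h3 h6) (h.yy.trans h4.symm) with e | e <;> rw [e]
      · rw [mul_inv_cancel, one_mul]
      · rw [mul_inv_cancel_right, h.hK.sq]
  have h6 := h.cQ (h.le h1) h2 (h.le (conj_mem le_normalizer h.yT (inv_mem h1)))
    (conj_mem_cj (inv_mem h2))
  refine h.hJ.int h.hJ2 h.neJ h.sT.isPGroup (mul_mem h1 h1) (mul_mem h2 h2) ?_
  have h7 : u * u = y * (u * u) * y⁻¹ := by
    rw [← mul_inv_eq_one, ← h5]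
    calc _ = u * (u * (y * u⁻¹ * y⁻¹)) * (y * u⁻¹ * y⁻¹) := by group
      _ = _ := by rw [h6]; group
  rw [h7]
  exact conj_mem_cj (mul_mem h2 h2)

theorem sqJ2 (h : Cf z t y b₁ x J K T S S') (h1 : u ∈ T) (h2 : u ∈ cj y J) :
    u * u = 1 ∨ u * u = z := by
  have e : u * u = y * (y⁻¹ * u * y * (y⁻¹ * u * y)) * y⁻¹ := by group
  rcases h.sqJ (conj_mem' le_normalizer h.yT h1) (mem_cj.1 h2) with h3 | h3 <;> rw [h3] at e
  · exact Or.inl (by rw [e]; group)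
  · exact Or.inr (e.trans (h.cz (h.le h.yT)))

theorem exists_g (h : Cf z t y b₁ x J K T S S') :
    ∃ g ∈ normalizer (T : Set G), g * t * g⁻¹ = z ∧ g * z * g⁻¹ = t * z := by
  have h1 : x * b₁ * t * (x * b₁)⁻¹ = z := by
    rw [cc, h.bt, cm, h.xz, h.ct h.xS, mul_assoc, ← h.tz, h.tt]
  have h2 : x * b₁ * z * (x * b₁)⁻¹ = t * z := by rw [cc, h.cz h.bS, h.xz]
  have h3 := h.sT.cj (x * b₁)
  rw [cj_inf, cj_Cz, cj_Cz, h1, h2] at h3
  have h4 : Cz (t * z) ⊓ Cz z = Cz z ⊓ Cz t := by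
    ext g
    simp only [mem_inf, mem_Cz]
    constructor <;> rintro ⟨e1, e2⟩
    · refine ⟨e2, mul_right_cancel (b := z) ?_⟩
      rw [mul_assoc, e1, mul_assoc, mul_assoc, e2]
    · exact ⟨by rw [← mul_assoc, e2, mul_assoc, e1, mul_assoc], e1⟩
  obtain ⟨e, he, h5⟩ := (h4 ▸ h3).exists_conj h.sT
  refine ⟨e * (x * b₁), cj_eq_self_iff.1 ((H83.cj_mul _ _ _).trans h5), ?_, ?_⟩
  · rw [cc, h1, Cz_conj he.1]
  · rw [cc, h2, cm, Cz_conj he.1, Cz_conj he.2]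

theorem exists_a' (h : Cf z t y b₁ x J K T S S') :
    ∃ a ∈ T, a ∈ J ∧ ∃ a' ∈ T, a' ∈ cj y J ∧ a * a' = t ∧ a * a = z ∧ a' * a' = z := by
  obtain ⟨g, hg, h1, h2⟩ := h.exists_g
  have hX := h1 ▸ h.hK.conj g
  have hY := h1 ▸ h.hK2.conj g
  have k1 := conj_mem le_rfl hg h.yT
  have k2 := conj_mem le_rfl hg (mul_mem h.zT' h.yT)
  have m1 := conj_mem_cj (g := g) h.yK
  have m2 := conj_mem_cj (g := g) h.zyK
  have s1 : g * y * g⁻¹ * (g * y * g⁻¹) = z := by rw [← cm, h.yy, h1]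
  have s2 : g * (z * y) * g⁻¹ * (g * (z * y) * g⁻¹) = z := by rw [← cm, h.zy2, h1]
  have p1 : g * (z * y) * g⁻¹ * (g * y * g⁻¹) = t := by
    rw [← cm, mul_assoc z, h.yy, cm, h1, h2, mul_assoc, h.hJ.sq, mul_one]
  have p2 : g * y * g⁻¹ * (g * (z * y) * g⁻¹) = t := by
    rw [← p1, ← cm, ← cm, h.zl (h.le h.yT), mul_assoc z]
  have hn2 := h.hJ.nDD h.tD (h.sT.le h.yT).1 (h.sT.le h.yT).2
  rcases h.hJ.supp hX hY m1 m2 (p2 ▸ h.tD) with e | e <;>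
    rcases h.hJ2.supp hX hY m1 m2 (p2 ▸ hn2) with e' | e'
  · exact absurd (e.trans e'.symm) h.neJ
  · exact ⟨_, k1, e ▸ m1, _, k2, e' ▸ m2, p2, s1, s2⟩
  · exact ⟨_, k2, e ▸ m2, _, k1, e' ▸ m1, p1, s2, s1⟩
  · exact absurd (e.trans e'.symm) h.neJ

theorem sqX (h : Cf z t y b₁ x J K T S S') (hX : IC z X) (hn : t ∉ DD z X) (h1 : u ∈ T)
    (h2 : u ∈ X) : u * u = 1 ∨ u * u = z := by
  obtain ⟨a, -, ha, a', -, ha', e, -⟩ := h.exists_a'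
  rcases hX.supp h.hJ h.hJ2 ha ha' (e ▸ hn) with rfl | rfl
  exacts [h.sqJ h1 h2, h.sqJ2 h1 h2]

theorem sqK (h : Cf z t y b₁ x J K T S S') (hX : IC t X) (hn : z ∉ DD t X) (h1 : u ∈ T)
    (h2 : u ∈ X) : u * u = 1 ∨ u * u = t := by
  obtain ⟨g, hg, e1, e2⟩ := h.exists_g
  have hY := e1 ▸ hX.conj g
  have e : u * u = g⁻¹ * (g * u * g⁻¹ * (g * u * g⁻¹)) * g⁻¹⁻¹ := by group
  rcases h.sqX hY (fun h3 => hn (by
    have := hY.DD_conj (mul_mem h3 hY.z_DD) g⁻¹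
    rwa [cinv e1, cinv e2, H83.cj_inv_cj] at this)) (conj_mem le_rfl hg h1) (conj_mem_cj h2) with
    h3 | h3 <;> rw [h3] at e
  · exact Or.inl (by rw [e]; group)
  · exact Or.inr (e.trans (cinv e1))

theorem TK (h : Cf z t y b₁ x J K T S S') (h1 : u ∈ T) (h2 : u ∈ K) :
    (u = 1 ∨ u = t) ∨ u = y ∨ u = t * y :=
  (h.sqK h.hK h.zD h1 h2).imp (h.hK.uniq u h2) fun e =>
    h.hK.eq_of_sq h.yK h2 (h.cK h1 h2) (h.yy.trans e.symm)

theorem TK2 (h : Cf z t y b₁ x J K T S S') (h1 : u ∈ T) (h2 : u ∈ cj bb K) :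
    (u = 1 ∨ u = t) ∨ u = z * y ∨ u = t * (z * y) :=
  (h.sqK h.hK2 (h.hK.nDD h.zD (h.sT.le h.bT).2 (h.sT.le h.bT).1) h1 h2).imp (h.hK2.uniq u h2)
    fun e => h.hK2.eq_of_sq h.zyK h2 (h.cK2 h1 h2) (h.zy2.trans e.symm)

omit [Finite G] in
theorem zx (h : Cf z t y b₁ x J K T S S') : z * x * z⁻¹ = t * x := by
  have := mul_inv_eq_iff_eq_mul.1 h.xz
  rw [mul_inv_eq_iff_eq_mul, mul_assoc, this, mul_assoc, h.tt]

omit [Finite G] in
theorem memT (h : Cf z t y b₁ x J K T S S') (h1 : u ∈ S') (h2 : v ∈ S') (e1 : u * z * u⁻¹ = t * z)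
    (e2 : v * z * v⁻¹ = t * z) : u⁻¹ * v ∈ T :=
  h.symm.mem (mul_mem (inv_mem h1) h2) (by rw [cc, e2, cinv e1])

theorem exists_a (h : Cf z t y b₁ x J K T S S') :
    ∃ a ∈ T, a ∈ J ∧ a * (y * a * y⁻¹) = t ∧ a * a = z := by
  obtain ⟨a, ha, haJ, a', ha', haJ', e, s1, s2⟩ := h.exists_a'
  refine ⟨a, ha, haJ, ?_, s1⟩
  have h1 := conj_mem le_normalizer h.yT ha
  have h2 := conj_mem_cj (g := y) haJ
  have h3 : a' * (y * a * y⁻¹) = y * a * y⁻¹ * a' := by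
    have h4 := xf (h.ct (h.le' h1))
    rw [← e, ← mul_assoc, ← h.cQ (h.le ha) haJ (h.le h1) h2, mul_assoc, mul_assoc a,
      mul_right_inj] at h4
    exact h4.symm
  have h4 : y * a * y⁻¹ * (y * a * y⁻¹) = z := by rw [← cm, s1, h.cz (h.le h.yT)]
  rcases h.hJ2.eq_of_sq haJ' h2 h3 (s2.trans h4.symm) with e1 | e1
  · rw [e1, e]
  exfalso
  have h5 : a * y * a⁻¹ = t * y := by
    calc _ = a * (y * a * y⁻¹)⁻¹ * y := by group
      _ = a * a' * y := by rw [h.inv4 (h.le h1) h4, e1, h.zz]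
      _ = _ := by rw [e]
  have y1 : y ≠ 1 := fun e => h.hK.ne (by rw [← h.yy, e, one_mul])
  have y2 : y ≠ t := fun e => h.hK.ne (by rw [← h.yy, e, h.hK.sq])
  have h6 : cj a K = K := by
    by_contra hne
    rcases h.hK.int (h.hK.conj' (h.sT.le ha).2) (Ne.symm hne) h.sT.isPGroup (mul_mem h.tT h.yT)
      (mul_mem h.hK.mem h.yK) (h5 ▸ conj_mem_cj h.yK) with e2 | e2
    · exact y2 (by rw [← h.tt y, e2, mul_one])
    · exact y1 (mul_eq_left.1 e2)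
  have h7 : a * x * a⁻¹ ∈ K := h6 ▸ conj_mem_cj h.xK
  have h8 := h.memT h.xS (conj_mem le_normalizer (h.le' ha) h.xS) h.xz (by
    rw [← h.cz (h.le ha), ← ci, ← cm, ← cm, h.xz, cm, h.cz (h.le ha), h.ct (h.le' ha)])
  have h9 : a * (x⁻¹ * (a * x * a⁻¹)) * a⁻¹ = (x⁻¹ * (a * x * a⁻¹))⁻¹ := by
    rcases h.TK h8 (mul_mem (inv_mem h.xK) h7) with (e2 | e2) | e2 | e2 <;> rw [e2]
    · group
    · rw [h.ct (h.le' ha), h.hK.inv]
    · rw [h5, h.yinv]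
    · rw [cm, h5, h.ct (h.le' ha), h.tt, ← h.yinv, inv_inv]
  have h10 : z * x * z⁻¹ = x := by
    calc _ = a * (x * (x⁻¹ * (a * x * a⁻¹))) * a⁻¹ := by rw [← s1]; group
      _ = x := by rw [cm, h9]; group
  rw [h.zx] at h10
  exact h.hK.ne (mul_eq_right.1 h10)

theorem swap (h : Cf z t y b₁ x J K T S S') (h1 : u ∈ S) (h2 : u * u = 1) (h3 : cj u J = cj y J) :
    u * bb * u⁻¹ ≠ z * bb := fun e => by
  have hyS := h.le h.yT
  have k1 := conj_mem le_normalizer hyS h.bS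
  have k2 := conj_mem_cj (g := y) h.bJ
  generalize y * b₁ * y⁻¹ = b₂ at e k1 k2
  have hu : ∀ v, u * (u * v * u⁻¹) * u⁻¹ = v := fun v => by rw [← cc, h2]; group
  have m1 : u * b₁ * u⁻¹ ∈ cj y J := h3 ▸ conj_mem_cj h.bJ
  have m2 : u * b₂ * u⁻¹ ∈ J := by
    obtain ⟨j, hj, rfl⟩ : b₂ ∈ cj u J := h3 ▸ k2
    exact (hu j).symm ▸ hj
  have s1 := conj_mem le_normalizer h1 h.bS
  have s2 := conj_mem le_normalizer h1 k1
  rw [cm, ← h.cQ s2 m2 s1 m1] at e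
  have e1 : b₁⁻¹ * (u * b₂ * u⁻¹) = z * b₂ * (u * b₁ * u⁻¹)⁻¹ := by
    rw [eq_mul_inv_iff_mul_eq, mul_assoc, e, h.zl (inv_mem h.bS), inv_mul_cancel_left]
  rcases h.hJ.int h.hJ2 h.neJ h.sS.isPGroup (mul_mem (inv_mem h.bS) s2) (mul_mem (inv_mem h.bJ) m2)
    (e1 ▸ mul_mem (mul_mem h.hJ2.mem k2) (inv_mem m1)) with e2 | e2
  · have e3 := inv_mul_eq_one.1 e2
    rw [e2, eq_comm, mul_inv_eq_one, e3, hu] at e1
    exact h.hJ.ne (mul_eq_right.1 e1)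
  · have e3 := inv_mul_eq_iff_eq_mul.1 e2
    rw [e2, mul_assoc, left_eq_mul, mul_inv_eq_one] at e1
    rw [e1, hu] at e3
    exact h.hJ.ne (left_eq_mul.1 e3)

end Cf

end Cfsg.Agent.H18.Q2
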