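import Cfsg.Agent.H18.Q2D

/-! Pairs of intrinsic `2`-components with a unique involution. -/

set_option autoImplicit false

namespace Cfsg.Agent.H18.Q2

open Subgroup Cfsg Cfsg.Agent.H83
open Cfsg.Agent.H52 (Opp Lp Dm)
open scoped commutatorElement

variable {G : Type*} [Group G] [Finite G] {z t y b₁ x a : G} {J K T S S' : Subgroup G}

local notation "bb" => b₁ * (y * b₁ * y⁻¹)

namespace Cf

theorem ba (h : Cf z t y b₁ x J K T S S') (ha : a ∈ T) (haJ : a ∈ J) (e : a * (y * a * y⁻¹) = t) :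
    b₁ * a * b₁⁻¹ = z * a := by
  have h1 := h.bt
  rwa [← e, cm, fx (h.cQ h.bS h.bJ (h.le (conj_mem le_normalizer h.yT ha)) (conj_mem_cj haJ)),
    ← mul_assoc z, mul_left_inj] at h1

theorem b2 (h : Cf z t y b₁ x J K T S S') : b₁ * b₁ = z := by
  obtain ⟨a, ha, haJ, e, s1⟩ := h.exists_a
  have h1 := h.ba ha haJ e
  have h2 : ∀ u, b₁ * u * b₁⁻¹ = z * u → b₁ * b₁ * u * (b₁ * b₁)⁻¹ = u := fun u hu => by
    rw [cc, hu, cm, h.cz h.bS, hu, h.zz]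
  have h3 := mul_mem h.bJ h.bJ
  have h4 : ∀ u, b₁ * u * b₁⁻¹ = z * u → b₁ * u * b₁⁻¹ ≠ u := fun u hu e =>
    h.hJ.ne (mul_eq_right.1 (hu.symm.trans e))
  rcases h.sqJ (h.mem (mul_mem h.bS h.bS) (h2 t h.bt)) h3 with e1 | e1
  · refine (h.hJ.uniq _ h3 e1).resolve_left fun e2 => h4 t h.bt ?_
    rcases h.hJ.uniq _ h.bJ e2 with e3 | e3 <;> rw [e3]
    · group
    · exact fx h.tz.symm
  · refine absurd ?_ (h4 a h1)
    rcases h.hJ.eq_of_sq haJ h3 (xf (h2 a h1)).symm (s1.trans e1.symm) with e2 | e2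
    · rw [← e2]; group
    · rw [← h.zz a, cm, h.cz h.bS, ← e2]; group

theorem x2 (h : Cf z t y b₁ x J K T S S') : x * x = t := by
  have h1 : x * x ∈ T := h.symm.mem (mul_mem h.xS h.xS) (by
    rw [cc, h.xz, cm, h.ct h.xS, h.xz, h.tt])
  have h4 : ∀ u, x * u * x⁻¹ = t * u → x * u * x⁻¹ ≠ u := fun u hu e =>
    h.hK.ne (mul_eq_right.1 (hu.symm.trans e))
  rcases h.TK h1 (mul_mem h.xK h.xK) with (e | e) | e | e
  · refine absurd ?_ (h4 z h.xz)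
    rcases h.hK.uniq _ h.xK e with e3 | e3 <;> rw [e3]
    · group
    · exact fx h.tz
  · exact e
  · exact absurd (by rw [← e]; group) (h4 y h.xy)
  · exact absurd (by rw [← h.tt y, cm, h.ct h.xS, ← e]; group) (h4 y h.xy)

theorem bb2 (h : Cf z t y b₁ x J K T S S') : bb * bb = 1 := by
  have h1 := h.cQ h.bS h.bJ (conj_mem le_normalizer (h.le h.yT) h.bS) (conj_mem_cj h.bJ)
  calc _ = b₁ * (y * b₁ * y⁻¹ * b₁) * (y * b₁ * y⁻¹) := by group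
    _ = b₁ * b₁ * (y * (b₁ * b₁) * y⁻¹) := by rw [← h1]; group
    _ = 1 := by rw [h.b2, h.cz (h.le h.yT), h.hJ.sq]

theorem t_mem (h : Cf z t y b₁ x J K T S S') : t ∈ Lp 2 (Cz (bb)) := by
  obtain ⟨a, ha, haJ, e, s1⟩ := h.exists_a
  have hba := h.ba ha haJ e
  have hbb := h.bb2
  have hsw := fun u => h.swap (u := u)
  have hK2 := h.hK2
  have hTK := fun u => h.TK2 (u := u)
  have hcR := fun u v => h.cR (u := u) (v := v)
  have hby := h.by'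
  have hbT := h.bT
  have hzy := h.zyK
  have ha2 := conj_mem le_normalizer h.yT ha
  have ha2J := conj_mem_cj (g := y) haJ
  have s2 : y * a * y⁻¹ * (y * a * y⁻¹) = z := by rw [← cm, s1, h.cz (h.le h.yT)]
  have hay : a * y * a⁻¹ = t * (z * y) := by
    calc _ = a * (y * a * y⁻¹)⁻¹ * y := by group
      _ = _ := by rw [h.inv4 (h.le ha2) s2, h.zl (h.le ha), e, ← h.tz, mul_assoc]
  have hb : bb * a * bb⁻¹ = z * a := by
    rw [cc, fx (h.cQ (h.le ha) haJ (conj_mem le_normalizer (h.le h.yT) h.bS)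
      (conj_mem_cj h.bJ)).symm, hba]
  generalize bb = b at *
  generalize y * a * y⁻¹ = a₂ at *
  have n2 : a₂ ≠ 1 ∧ a₂ ≠ z := ⟨fun e => h.hJ.ne (by rw [← s2, e, one_mul]),
    fun e => h.hJ.ne (by rw [← s2, e, h.hJ.sq])⟩
  have h1 : cj a K = cj b K := by
    by_contra hne
    have h2 : t * (z * y) * (t * (z * y)) = t := by
      rw [mul_assoc, h.tl (h.le' (mul_mem h.zT' h.yT)), h.tt, h.zy2]
    rcases (h.hK.conj' (h.sT.le ha).2).int hK2 hne h.sT.isPGroup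
      (mul_mem h.tT (mul_mem h.zT' h.yT)) (hay ▸ conj_mem_cj h.yK) (mul_mem hK2.mem hzy) with
      e2 | e2 <;> rw [e2] at h2
    · exact h.hK.ne (by rw [← h2, one_mul])
    · exact h.hK.ne (h2.symm.trans h.hK.sq)
  have hc : ∀ g ∈ T, g * x * g⁻¹ ∈ S' ∧ g * x * g⁻¹ * z * (g * x * g⁻¹)⁻¹ = t * z ∧
      g * x * g⁻¹ * (g * x * g⁻¹) = t := fun g hg =>
    ⟨conj_mem le_normalizer (h.le' hg) h.xS, by
      rw [← h.cz (h.le hg), ← ci, ← cm, ← cm, h.xz, cm, h.cz (h.le hg), h.ct (h.le' hg)],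
      by rw [← cm, h.x2, h.ct (h.le' hg)]⟩
  obtain ⟨p1, p2, p3⟩ := hc a ha
  obtain ⟨q1, q2, q3⟩ := hc b hbT
  have p4 : a * x * a⁻¹ ∈ cj b K := h1 ▸ conj_mem_cj h.xK
  have q4 : b * x * b⁻¹ ∈ cj b K := conj_mem_cj h.xK
  have p5 : a * (a * x * a⁻¹) * a⁻¹ = t * x := by rw [← cc, s1, h.zx]
  have q5 : b * (b * x * b⁻¹) * b⁻¹ = x := by rw [← cc, hbb]; group
  have p6 := hcR _ _ h.xS h.xK p1 p4
  have q6 := hcR _ _ h.xS h.xK q1 q4
  have hσ := hTK _ (h.memT q1 p1 q2 p2) (mul_mem (inv_mem q4) p4)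
  obtain ⟨X, hX⟩ : ∃ X, X = x * (a * x * a⁻¹) := ⟨_, rfl⟩
  have hXT : X ∈ T := h.symm.mem (hX ▸ mul_mem h.xS p1) (by
    rw [hX, cc, p2, cm, h.ct h.xS, h.xz, h.tt])
  have hXX : X * X = 1 := by
    calc _ = x * (a * x * a⁻¹ * x) * (a * x * a⁻¹) := by rw [hX]; group
      _ = x * x * (a * x * a⁻¹ * (a * x * a⁻¹)) := by rw [← p6]; group
      _ = 1 := by rw [h.x2, p3, h.hK.sq]
  have hXa : X * a * X⁻¹ = z * a₂ := by
    have h2 : a * X * a⁻¹ = t * X := by rw [hX, cm, p5, h.tl p1, ← p6]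
    have h3 : X * a = t * (a * X) := by rw [mul_inv_eq_iff_eq_mul.1 h2, mul_assoc, h.tt]
    rw [h3, mul_assoc, mul_inv_cancel_right, ← e, mul_assoc, ← h.cQ (h.le ha) haJ (h.le ha2) ha2J,
      ← mul_assoc, s1]
  have hXJ : cj X J = cj y J := by
    by_contra hne
    rcases (h.hJ.conj' (h.sT.le hXT).1).int h.hJ2 hne h.sT.isPGroup (mul_mem h.zT' ha2)
      (hXa ▸ conj_mem_cj haJ) (mul_mem h.hJ2.mem ha2J) with e2 | e2
    · exact n2.2 (by rw [← h.zz a₂, e2, mul_one])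
    · exact n2.1 (mul_eq_left.1 e2)
  generalize hσ' : (b * x * b⁻¹)⁻¹ * (a * x * a⁻¹) = σ at hσ
  have hX' : X = x * (b * x * b⁻¹) * σ := by rw [hX, ← hσ']; group
  replace hσ : σ = 1 ∨ σ = t := hσ.resolve_right fun h2 => hsw _ (h.le hXT) hXX hXJ (by
    have h3 : b * (z * y) * b⁻¹ = z * (z * y) := by rw [cm, h.cz (h.le hbT), hby]
    have h4 : b * σ * b⁻¹ = σ * z := by
      rcases h2 with e2 | e2 <;> rw [e2]
      · rw [h3, ← xf (h.cz (h.le (mul_mem h.zT' h.yT)))]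
      · rw [cm, h3, h.ct (h.le' hbT), ← xf (h.cz (h.le (mul_mem h.zT' h.yT))), mul_assoc t]
    have h5 : b * X * b⁻¹ = X * z := by
      rw [hX', cm, cm, q5, h4, ← q6, mul_assoc _ σ]
    rw [mul_inv_eq_iff_eq_mul, mul_assoc, mul_inv_eq_iff_eq_mul.1 h5, xf (h.cz (h.le hXT)),
      mul_assoc, h.zz])
  have hs : x * b * x⁻¹ * a * (x * b * x⁻¹)⁻¹ = a₂ := by
    have h2 : x * b * x⁻¹ = X * (σ⁻¹ * t * b) := by
      calc _ = x * (b * x * b⁻¹)⁻¹ * b := by group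
        _ = _ := by rw [h.inv4' q1 q3, ← xf (h.ct q1), hX']; group
    have h3 : σ⁻¹ * t * (z * a) * (σ⁻¹ * t)⁻¹ = z * a := by
      rcases hσ with e2 | e2 <;> rw [e2]
      · rw [inv_one, one_mul, fx (xf (h.ct (h.le' (mul_mem h.zT' ha)))).symm]
      · group
    rw [h2, cc, cc, hb, h3, cm, h.cz (h.le hXT), hXa, h.zz]
  have hss : x * b * x⁻¹ * (x * b * x⁻¹) = 1 := by rw [← cm, hbb]; group
  have hsT : x * b * x⁻¹ ∈ T := h.symm.mem (conj_mem le_normalizer h.xS (h.le' hbT)) (by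
    have h2 : x * (t * z) * x⁻¹ = z := by rw [cm, h.ct h.xS, h.xz, h.tt]
    rw [cc, cc, ← h2, cinv rfl, cm b, h.cz (h.le hbT), h.ct (h.le' hbT)])
  have h2 := h.hJ.diag hss (h.sT.le hsT).1 (fun hn => (h.hJ.int h.hJ2 h.neJ h.sT.isPGroup ha2
    (hs ▸ conj_mem le_rfl hn haJ) ha2J).elim n2.1 n2.2) h.sT.isPGroup hsT ha haJ
  rw [hs, e, inf_comm] at h2
  have h3 := Lp_conj (bal h.hJ.sq (mem_Cz.2 (xf (h.cz (h.le hsT))).symm) h2) x⁻¹
  rwa [cinv (h.ct h.xS), cinv rfl] at h3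

theorem false (h : Cf z t y b₁ x J K T S S') : False := by
  obtain ⟨a, ha, haJ, e, s1⟩ := h.exists_a
  have hyS := h.le h.yT
  obtain ⟨J0, h1, h2, h3⟩ := h.hJ.cover (S := S ⊓ cj y J) h.sS.isPGroup.to_inf_left
    (inf_le_right.trans (h.hJ.le_DD h.hJ2 h.neJ))
  have hQ : IsSylowIn 2 (S ⊓ J) J0 := (h.hJ.syl h.sS).mono (fun u hu => h3 u
    ⟨hu.2, fun v hv => (h.cQ hu.1 hu.2 hv.1 hv.2).symm⟩ (isPGroup_iff.1 h.sS.isPGroup u hu.1)) h2
  have hc : ∀ r ∈ J0, ∀ u ∈ S, u ∈ J → r * (y * u * y⁻¹) * r⁻¹ = y * u * y⁻¹ := fun r hr u hu hu' =>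
    fx ((h1.1 hr).2 _ ⟨conj_mem le_normalizer hyS hu, conj_mem_cj hu'⟩).symm
  have hc' : ∀ r ∈ J0, ∀ u ∈ S, u ∈ J → y * r * y⁻¹ * u * (y * r * y⁻¹)⁻¹ = u :=
    fun r hr u hu hu' => by
      have := fx ((h1.1 hr).2 _ ⟨conj_mem' le_normalizer hyS hu, h.back hu'⟩).symm
      calc _ = y * (r * (y⁻¹ * u * y) * r⁻¹) * y⁻¹ := by group
        _ = u := by rw [this]; group
  obtain ⟨r, hr, h4, c, h5, h6⟩ := (h.hJ.toUI.mono h2).rho (H52.IsPComponentOf.commutator_self h1)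
    hQ ⟨h.le ha, haJ⟩ ⟨h.bS, h.bJ⟩ s1 h.b2 (h.ba ha haJ e) fun p hp ⟨k, hk⟩ hpa => by
      have h7 : p ∈ Cz z ⊓ Cz t := ⟨h.hJ.le (h2 hp), mem_Cz.2 (xf (by
        rw [← e, cm, fx hpa, hc p hp a (h.le ha) haJ]))⟩
      obtain ⟨g, hg, h8⟩ := h.sT.exists_conj_le (zpowers_le.2 h7) (isPGroup_zpowers hk)
      have e1 : p * p = g⁻¹ * (g * p * g⁻¹ * (g * p * g⁻¹)) * g⁻¹⁻¹ := by group
      rcases h.sqX (h.hJ.conj' hg.1) (h.hJ.nDD h.tD hg.1 hg.2) (h8 (conj_mem_cj (mem_zpowers p)))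
        (conj_mem_cj (h2 hp)) with h9 | h9 <;> rw [h9] at e1
      · exact Or.inl (by rw [e1]; group)
      · exact Or.inr (e1.trans (cinv (Cz_conj hg.1)))
  have key : ∀ r ∈ J0, ∀ β ∈ S, β ∈ J → r * a * r⁻¹ = β →
      r * (y * r * y⁻¹) * t * (r * (y * r * y⁻¹))⁻¹ = β * (y * β * y⁻¹) := fun r hr β hβ hβ' e1 => by
    rw [← e, cc, cm (y * r * y⁻¹), hc' r hr a (h.le ha) haJ, ← ci y r, ← cm y, ← cm y, e1, cm r, e1,
      hc r hr β hβ hβ']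
  have hzS := h.le h.zT'
  have hb2 := conj_mem le_normalizer hyS h.bS
  have h7 : r * (y * r * y⁻¹) * t * (r * (y * r * y⁻¹))⁻¹ = bb := by
    rcases h4 with h4 | h4
    · exact key r hr _ h.bS h.bJ h4
    · rw [key r hr _ (mul_mem hzS h.bS) (mul_mem h.hJ.mem h.bJ) h4, cm, h.cz hyS, mul_assoc z,
        h.zl h.bS, h.zz]
  have hcS : c ∈ S ∧ c ∈ J ∧ c * (y * c * y⁻¹) ∈ K := by
    rcases h5 with h5 | h5 | h5 | h5 <;> rw [h5]
    · exact ⟨one_mem _, one_mem _, by simp⟩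
    · exact ⟨hzS, h.hJ.mem, by rw [h.cz hyS, h.hJ.sq]; exact one_mem _⟩
    · exact ⟨h.le ha, haJ, e ▸ h.hK.mem⟩
    · refine ⟨mul_mem hzS (h.le ha), mul_mem h.hJ.mem haJ, ?_⟩
      rw [cm, h.cz hyS, mul_assoc z, h.zl (h.le ha), h.zz, e]
      exact h.hK.mem
  have h8 : (r * (y * r * y⁻¹))⁻¹ * t * (r * (y * r * y⁻¹))⁻¹⁻¹ = bb * (c * (y * c * y⁻¹)) := by
    have h9 : r⁻¹ * a * r⁻¹⁻¹ = b₁ * c := by rw [inv_inv, h6]
    rw [mul_inv_rev r, cc, ← e, cm r⁻¹, h9, hc _ (inv_mem hr) a (h.le ha) haJ, ← ci y r,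
      cm (y * r⁻¹ * y⁻¹), hc' _ (inv_mem hr) _ (mul_mem h.bS hcS.1) (mul_mem h.bJ hcS.2.1),
      ← ci y r⁻¹, ← cm y, ← cm y, h9, cm y,
      mul_assoc b₁, ← mul_assoc c, h.cQ hcS.1 hcS.2.1 hb2 (conj_mem_cj h.bJ)]
    group
  have h9 := Lp_conj h.t_mem (r * (y * r * y⁻¹))⁻¹
  rw [cinv h7, h8] at h9
  exact h.bn ((mul_mem_cancel_right (le_normalizer hcS.2.2)).1 (h.hK.Lp_le h9))

end Cf

theorem part1 (hJ : IC z J) (hK : IC t K) (hy : y ∈ K) (hc : y ∈ Cz z) {k : ℕ} (hk : y ^ 2 ^ k = 1)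
    (h1 : y ≠ 1) (h2 : y ≠ t) : y ∈ normalizer (J : Set G) := by
  by_cases hzt : z = t
  · subst hzt
    exact hJ.Lp_le (hK.le_Lp hy)
  induction k generalizing y with
  | zero => exact absurd (by simpa using hk) h1
  | succ k ih =>
    by_contra hn
    have h3 : y * y ∈ normalizer (J : Set G) := by
      by_cases e : y * y = t
      · exact e ▸ caseA hJ hK hy e hc
      · exact ih (mul_mem hy hy) (mul_mem hc hc) (by rw [← pow_two, ← pow_mul, ← pow_succ', hk])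
          (hK.sq_ne hy h1 h2) e
    obtain ⟨_, _, _, _, _, h⟩ := exists_cf hJ hK hzt hy hc hk h1 h2 hn h3
    exact h.false

theorem part2 (hJ : IC z J) (hK : IC t K) (hz : z ∈ normalizer (K : Set G)) :
    t ∈ normalizer (J : Set G) := by
  by_contra hn
  have hzt : z * t * z⁻¹ = t := hK.toUI.conj hK.mem hz
  obtain ⟨T, S, S', h, -⟩ := exists_tri (z := z) (t := t) IsPGroup.of_bot bot_le
  have hzT := h.zT hJ.sq (xf hzt)
  have htT := h.symm.zT hK.sq (xf hzt).symm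
  have hsm : ∀ P : Subgroup G, IsPGroup 2 P → P ≤ K ⊓ Cz z → P ≤ zpowers t := fun P hP hle u hu => by
    by_contra h1
    obtain ⟨k, hk⟩ := isPGroup_iff.1 hP u hu
    have h2 : u ≠ 1 := by rintro rfl; exact h1 (one_mem _)
    exact hn (zpowers_le.2 (part1 hJ hK (hle hu).1 (hle hu).2 hk h2
      (by rintro rfl; exact h1 (mem_zpowers _))) (hK.pow (hle hu).1 hk h2))
  have hcyc : ∀ P : Subgroup G, P ≤ zpowers t → IsCyclic P := fun P hP =>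
    isCyclic_of_injective (inclusion hP) (inclusion_injective _)
  have hs : Group.IsSolvable ↥(K ⊓ Cz z) := by
    obtain ⟨P, hP⟩ := exists_isSylowIn 2 (K ⊓ Cz z)
    exact solv_of_cyc hP (hcyc P (hsm P hP.isPGroup hP.le))
  have hR := hK.syl h.sS'
  obtain ⟨x, ⟨hxS, hxK⟩, hx⟩ := (hK.toUI.mono inf_le_right).flip hR.isPGroup hJ.sq
    (le_norm_inf (H := S' ⊓ normalizer (K : Set G)) (le_norm_of_le inf_le_left) inf_le_right
      ⟨h.le' hzT, hz⟩) fun h6 => hK.nc hR (hcyc _ (hsm _ hR.isPGroup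
        (le_inf inf_le_right fun u hu => mem_Cz.2 (h6 u hu))))
  obtain ⟨d, hd, hdJ, hdd⟩ := hJ.exists_four h.sS
  have htS := h.le htT
  have htc := h.sS.le htS
  have hw := hJ.diag hK.sq htc hn h.sS.isPGroup htS hd hdJ
  have hd' := conj_mem le_normalizer htS hd
  have hd'J := conj_mem_cj (g := t) hdJ
  have hJ2 := hJ.conj' htc
  have hD := hJ.le_DD hJ2 (fun e => hn (cj_eq_self_iff.1 e.symm)) hd'J
  have hcd := hJ.comm h.sS.isPGroup hd hdJ hd' hD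
  have hwT := h.mem (mul_mem hd hd') (Cz_conj (H52.Lp_le _ hw).2)
  have hwD := hK.proj hJ.sq (h.sT.le hzT).2 hz hs (inf_comm (Cz z) (Cz t) ▸ hw)
  have hxw := fx (hK.comm h.sS'.isPGroup hxS hxK (h.le' hwT) hwD)
  have hdi : d⁻¹ = z * d := inv_eq_of_mul_eq_one_right (by
    rw [← mul_assoc, xf (h.cz hd), mul_assoc, hdd, hJ.sq])
  have hdt : d⁻¹ * t * d⁻¹⁻¹ = z * (d * (t * d * t⁻¹)) * t := by
    rw [← mul_assoc z, ← hdi]; group
  have hdw : d⁻¹ * (d * (t * d * t⁻¹)) * d⁻¹⁻¹ = d * (t * d * t⁻¹) := by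
    rw [inv_mul_cancel_left, inv_inv, hcd]
  have hdw' : z * (d * (t * d * t⁻¹)) = d⁻¹ * (t * d * t⁻¹) := by rw [← mul_assoc z, ← hdi]
  have hww : d * (t * d * t⁻¹) * (d * (t * d * t⁻¹)) = 1 := by
    calc _ = d * (t * d * t⁻¹ * d) * (t * d * t⁻¹) := by group
      _ = d * d * (t * (d * d) * t⁻¹) := by rw [← hcd]; group
      _ = 1 := by rw [hdd, h.cz htS, hJ.sq]
  generalize t * d * t⁻¹ = d' at *
  have hdc : d ∈ J ⊓ Cz (z * (d * d')) := ⟨hdJ, mem_Cz.2 (xf (by rw [hdw', cm d, fx hcd]; group))⟩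
  generalize d * d' = w at *
  have hwt := xf (h.ct (h.le' hwT))
  have g1 : x * d⁻¹ * t * (x * d⁻¹)⁻¹ = z * w := by
    rw [cc, hdt, cm, cm, hx, hxw, h.ct hxS, ← xf hzt, mul_assoc, hwt, mul_assoc z, ← mul_assoc t,
      hK.sq, one_mul]
  have g2 : x * d⁻¹ * (w * t) * (x * d⁻¹)⁻¹ = z := by
    rw [cc, cm d⁻¹, hdt, hdw, ← mul_assoc w, ← mul_assoc w, xf (h.cz (h.le hwT)), mul_assoc z, hww,
      mul_one, cm, hx, h.ct hxS, mul_assoc, xf hzt, ← mul_assoc, hK.sq, one_mul]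
  have hK' := g1 ▸ hK.conj (x * d⁻¹)
  have hD' := hK.DD_conj (mul_mem hwD hK.z_DD) (x * d⁻¹)
  rw [g1, g2] at hD'
  obtain ⟨K0, k1, -, k3⟩ := hK'.cover1 hJ.sq hD'
  have hdL : z * w ∈ Lp 2 (Cz z) := hdw' ▸ mul_mem (inv_mem (hJ.le_Lp hdJ)) (hJ2.le_Lp hd'J)
  have n1 : d ≠ 1 := fun e => hJ.ne (by rw [← hdd, e, one_mul])
  have n2 : d ≠ z := fun e => hJ.ne (by rw [← hdd, e, hJ.sq])
  have hDD : ∀ u ∈ J, u ∈ Cz (z * w) → ⁅u, d⁆ ∈ Opp 2 (Cz z) := fun u hu hu' => by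
    have h1 := (hJ.mem_DD.1 hD).2 u hu
    have h2 := Cz_conj hu'
    rw [hdw'] at h2
    have h3 : ⁅u, d'⁆ = ⁅u, d⁆ := by
      calc _ = u * d * u⁻¹ * (u * (d⁻¹ * d') * u⁻¹) * (d⁻¹ * d')⁻¹ * d⁻¹ := by
            rw [commutatorElement_def]; group
        _ = _ := by rw [h2, commutatorElement_def]; group
    exact h3 ▸ h1
  have hs' : Group.IsSolvable ↥(J ⊓ Cz (z * w)) := by
    obtain ⟨P, hP, hdP⟩ := exists_isSylowIn_ge (zpowers_le.2 hdc)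
      (h.sS.isPGroup.to_le (zpowers_le.2 hd))
    replace hdP := hdP (mem_zpowers d)
    refine solv_of_cyc hP ((hJ.toUI.mono (hP.le.trans inf_le_left)).cyc hP.isPGroup hdP
      (fun u hu => commutatorElement_eq_one_iff_mul_comm.1 (eq_one_of_Opp hP.isPGroup
        (mul_mem (mul_mem (mul_mem hu hdP) (inv_mem hu)) (inv_mem hdP))
        (hDD u (hP.le hu).1 (hP.le hu).2))) n1 n2)
  have h1 := hJ.proj hK'.sq (H52.Lp_le _ hdL) (hJ.Lp_le hdL) hs'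
    (inf_comm (Cz (z * w)) (Cz z) ▸ H52.IsPComponentOf.le_Lp k1 k3)
  rw [hdw'] at h1
  exact (hJ.ctr h.sS.isPGroup hd hdJ (inv_mem_iff.1 ((mul_mem_cancel_right hD).1 h1))).elim n1 n2

end Cfsg.Agent.H18.Q2
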