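import Cfsg.Agent.H18.RfSc

set_option autoImplicit false

namespace Cfsg.Agent.H18.Rf

open Cfsg Subgroup Cfsg.Agent.H18.MaxOff
open Cfsg.Agent.H48 (IsWord)
open Cfsg.Agent.H49 (XS LX)

universe u

theorem Cfg.sq {G : Type u} [Group G] {Q Q' X Y : Subgroup G} {z : G} (h : Cfg Q Q' z X Y) {y : G}
    (hy : y ∈ Y) : y * y ∈ Q := by
  have hy' : y ∈ Q' := by rw [h.hY] at hy; exact hy.1
  rcases h.xs'.sq hy' with e | e <;> rw [e]
  · exact one_mem _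
  · exact h.xs.mem

theorem scT_of (wq : WqTStmt.{u}) (mo : MoQStmt.{u}) (x1 : XsIStmt.{u}) (x2 : XsIIStmt.{u})
    (x3 : XsIIIStmt.{u}) (xt : XsTStmt.{u}) : ScTStmt.{u} := by
  intro G _ _ V z Q W ω el wc lc lt
  by_contra hn
  obtain ⟨c, -, X, Y, cf, hY⟩ := mo G V z Q W el wc lc (wq G V z Q W ω el wc lc lt) hn
  by_cases hd : Q ⊓ CC (Q ⊓ Y) ≤ X
  · exact xt G V z Q _ W X Y ω lc lt cf (x3 G Q _ z X Y cf (x2 G Q _ z X Y cf hd)) hY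
  · obtain ⟨y, hy, hyQ, hc⟩ := x1 G Q _ z X Y cf hd
    have := lt.r4 y (hY hy) hyQ (cf.sq hy)
    rw [lt.cQ] at hc
    omega

theorem scG_of (wq : WqGStmt.{u}) (mo : MoQStmt.{u}) (x1 : XsIStmt.{u}) (x2 : XsIIStmt.{u})
    (x3 : XsIIIStmt.{u}) (g2 : XsG2Stmt.{u}) (xw : XsWStmt.{u}) (ek : EkStmt.{u})
    (k1 : K1Stmt.{u}) (k2 : K2Stmt.{u}) : ScGStmt.{u} := by
  intro G _ _ V ρ ψ st gol wc O hO Q W lc lg
  have gs : Gs V ρ ψ O Q W := ⟨st, gol, wc, hO, lc, lg⟩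
  have hw := wq G V ρ ψ O Q W gs
  by_contra hn
  obtain ⟨c, hc, X, Y, cf, hY⟩ := mo G V _ Q W st.el wc lc hw hn
  by_cases hd : Q ⊓ CC (Q ⊓ Y) ≤ X
  · have rad := x3 G Q _ _ X Y cf (x2 G Q _ _ X Y cf hd)
    obtain ⟨w, hwW, hwz, hwQ, eX, eY, hYE⟩ :=
      xw G V _ Q _ W X Y st.el lc cf rad hY (g2 G Q _ _ X Y cf rad lg.cQ)
    have e := ek G V ρ ψ O Q W gs hw w hwW hwz
    refine k1 G V ρ ψ O Q W gs hw w hwW hwz e c hc hwQ (eY ▸ hYE) (eY ▸ cf.ny) ?_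
      (k2 G V ρ ψ O Q W gs hw w hwW hwz e)
    rw [← eX, cf.hX]
    exact inf_le_right
  · obtain ⟨y, hy, hyQ, hc⟩ := x1 G Q _ _ X Y cf hd
    rw [lg.cQ] at hc
    exact hyQ (lg.tv y (hY hy) (by omega))

theorem main_of (md : ModStmt.{u}) (wG : WcGStmt.{u}) (wT : WcTStmt.{u}) (oG : OzGStmt.{u})
    (oT : OzTStmt.{u}) (red : RedStmt.{u}) (iG : IrrGStmt.{u}) (iT : IrrTStmt.{u})
    (qG : QgStmt.{u}) (qT : QtStmt.{u}) (sG : ScGStmt.{u}) (sT : ScTStmt.{u}) (gs : GsStmt.{u})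
    (nG : NcGStmt.{u}) (nT : NcTStmt.{u}) (o2 : O2Stmt.{u}) (eG : EndG0Stmt.{u})
    (eT : EndT0Stmt.{u}) {G : Type u} [Group G] [Finite G] (V : Subgroup G)
    (ρ : NN V →* M24) (st : St V ρ) (hO : HO V) :
    V.Normal ∨ IsOfJankoFourType G ∨ IsFi24' G ∨ Spor.IsoCo1 G := by
  obtain ⟨ψ, h | h⟩ := md G V ρ st
  · have wc := wG G V ρ ψ st h
    have oz := oG G V ρ ψ st h hO
    obtain ⟨irr, O, h1, O', h2, O'', h3, e, ne⟩ := iG G V ρ ψ st h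
    have wd : ∀ o ∈ octads, IsWord o := fun o ho => ho.1
    rcases red G V ρ st wc irr ⟨ψ O, h.mem _ (wd _ h1), ψ O', h.mem _ (wd _ h2), ne _ h1, ne _ h2,
      e ▸ ne _ h3, oz _ h1, oz _ h2, e ▸ oz _ h3⟩ with hn | hs
    · exact Or.inl hn
    obtain ⟨Q, W, lc, lg⟩ := qG G V ρ ψ st h O h1
    have lx := gs G V _ Q W st.el st.cen wc lc lg.cQ.ge (oz _ h1)
      (sG G V ρ ψ st h wc O h1 Q W lc lg)
    refine Or.inr (Or.inr (Or.inr (eG G Q _ hs lx lg.cQ ?_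
      (o2 G V _ Q W st.el wc lc lx (oz _ h1) (nG G V ρ ψ st h wc hs O h1)))))
    obtain ⟨m, -, hm⟩ := lc.nv
    exact Dvd.dvd.trans ⟨m, hm⟩ (card_subgroup_dvd_card _)
  · have wc := wT G V ρ ψ st h
    have oz := oT G V ρ ψ st h hO
    obtain ⟨irr, t, t', t'', h1, h2, h3, e, ne⟩ := iT G V ρ ψ st h
    have ev : ∀ s : Finset GolayPt, s.card = 4 → Even s.card := fun s hs => by rw [hs]; decide
    rcases red G V ρ st wc irr ⟨ψ t, h.mem _ (ev _ h1), ψ t', h.mem _ (ev _ h2), ne _ h1, ne _ h2,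
      e ▸ ne _ h3, oz _ h1, oz _ h2, e ▸ oz _ h3⟩ with hn | hs
    · exact Or.inl hn
    obtain ⟨Q, W, ω, lc, lt⟩ := qT G V ρ ψ st h t h1
    have lx := gs G V _ Q W st.el st.cen wc lc (by rw [lt.cQ]; norm_num) (oz _ h1)
      (sT G V _ Q W ω st.el wc lc lt)
    have nc := nT G V ρ ψ st h wc hs t h1
    rcases eT G V ρ ψ st h wc hs t h1 Q W ω lc lt lx nc
      (o2 G V _ Q W st.el wc lc lx (oz _ h1) nc) with h4 | h4
    · exact Or.inr (Or.inl h4)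
    · exact Or.inr (Or.inr (Or.inl h4))

theorem exists_st {G : Type u} [Group G] (V : Subgroup G) (hV : IsElementaryAbelian 2 V)
    (hcard : Nat.card V = 2 ^ 11) (hC : centralizer (V : Set G) = V)
    (hM : Spor.IsoM24 (↥(normalizer (V : Set G)) ⧸ V.subgroupOf (normalizer (V : Set G)))) :
    ∃ ρ, St V ρ := by
  obtain ⟨e⟩ := hM
  refine ⟨e.toMonoidHom.comp (QuotientGroup.mk' _), fun v hv => ?_, hcard, hC,
    e.surjective.comp (QuotientGroup.mk'_surjective _), fun n => ?_⟩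
  · simpa [pow_two] using hV.2 v hv
  · simp [mem_subgroupOf]

end Cfsg.Agent.H18.Rf
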