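import Cfsg.Agent.H18.RfDefs
import Cfsg.Prelude.Def_LocalEven
import Cfsg.Prelude.Def_TwoFusion

/-! Project RF: statements of the chapters on strong closure. -/

set_option autoImplicit false

namespace Cfsg.Agent.H18.Rf

open Cfsg Subgroup Cfsg.Agent.H18.MaxOff
open Cfsg.Agent.H48 (IsWord)
open Cfsg.Agent.H49 (XS LX)
open scoped symmDiff Pointwise

universe u

section Data

variable {G : Type u} [Group G]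

/-- an extremal offender on an elementary abelian group -/
structure Off (A X Y : Subgroup G) : Prop where
  yn : Y ≤ NN A
  ye : ∀ y ∈ Y, y * y = 1
  xa : X ≤ A
  ny : ¬ Y ≤ A
  nx : ¬ A ≤ X
  xc : ∀ a ∈ A, a ∈ X ↔ ∀ y ∈ Y, a * y * a⁻¹ * y⁻¹ ∈ Y
  card : Nat.card X = Nat.card Y
  inj : ∀ t ∈ A, t ∉ X → ∀ y ∈ Y, t * y * t⁻¹ * y⁻¹ ∈ Y → y ∈ A
  all : ∀ t ∈ A, ∀ y ∈ Y, t * y * t⁻¹ * y⁻¹ ∈ X

/-- an extremal pair of extraspecial groups with the same centre -/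
structure Cfg (Q Q' : Subgroup G) (z : G) (X Y : Subgroup G) : Prop where
  xs : XS Q z
  xs' : XS Q' z
  cQ : Nat.card Q' = Nat.card Q
  hX : X = Q ⊓ NN Q'
  hY : Y = Q' ⊓ NN Q
  ny : ¬ Y ≤ Q
  nx : ¬ Q ≤ X
  xc : ∀ a ∈ Q, a ∈ X ↔ ∀ y ∈ Y, a * y * a⁻¹ * y⁻¹ ∈ Y
  card : Nat.card X = Nat.card Y
  inj : ∀ t ∈ Q, t ∉ X → ∀ y ∈ Y, t * y * t⁻¹ * y⁻¹ ∈ Y → y ∈ Q
  all : ∀ t ∈ Q, ∀ y ∈ Y, t * y * t⁻¹ * y⁻¹ ∈ X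

/-- the radical of `Q ⊓ Y` -/
abbrev RR (Q Y : Subgroup G) : Subgroup G := Q ⊓ Y ⊓ CC (Q ⊓ Y)

/-- the parabolic case, first part -/
structure Rad0 (Q : Subgroup G) (z : G) (X Y : Subgroup G) : Prop where
  dp : Q ⊓ CC (Q ⊓ Y) ≤ X
  xr : X = Q ⊓ CC (RR Q Y)
  cm : ∀ x ∈ X, ∀ y ∈ Y, x * y * x⁻¹ * y⁻¹ ∈ RR Q Y
  dc : Q ⊓ CM Y (zpowers z) = Q ⊓ Y
  on : ∀ t ∈ Q, t ∉ X → ∀ u ∈ Q ⊓ CC (Q ⊓ Y), ∃ y ∈ Y, (t * y * t⁻¹ * y⁻¹)⁻¹ * u ∈ RR Q Y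
  nd : ¬ Q ⊓ CC (Q ⊓ Y) ≤ RR Q Y

/-- the parabolic case -/
structure Rad (Q : Subgroup G) (z : G) (X Y : Subgroup G) : Prop extends Rad0 Q z X Y where
  sx : ∀ y ∈ Y, y ∉ Q → ∀ r ∈ RR Q Y, ∃ x ∈ X, (x * y * x⁻¹ * y⁻¹)⁻¹ * r ∈ zpowers z
  rk : ∀ y ∈ Y, y ∉ Q →
    4 * Nat.card Q = Nat.card ↥(Q ⊓ CM {y} (zpowers z)) * Nat.card (RR Q Y) ^ 2
  re : ∀ r ∈ RR Q Y, r * r = 1
  yr : Y ≤ CC (RR Q Y)

/-- the setting of the code case -/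
structure Gs (V : Subgroup G) (ρ : NN V →* M24) (ψ : Finset GolayPt → G) (O : Finset GolayPt)
    (Q W : Subgroup G) : Prop where
  st : St V ρ
  gol : Gol V ρ ψ
  wc : WC V
  oct : O ∈ octads
  lc : LC V (ψ O) Q W
  lg : LG V ρ ψ O Q W

/-- the normalizer of `U` and `Ew` in `C(z)` -/
def H2 (V : Subgroup G) (z : G) (Q : Subgroup G) (w : G) : Subgroup G :=
  C1 z ⊓ NN (UU z w) ⊓ NN (Ew V z Q w)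

/-- the kernel of its action on `Ew / U` and `U` -/
def Cc (V : Subgroup G) (z : G) (Q : Subgroup G) (w : G) : Subgroup G :=
  H2 V z Q w ⊓ C1 w ⊓ CM (Ew V z Q w) (UU z w)

/-- elementary facts on `Ew` -/
structure Ek (V : Subgroup G) (z : G) (Q W : Subgroup G) (w : G) : Prop where
  p2 : IsPGroup 2 (Ew V z Q w)
  xe : Q ⊓ C1 w ≤ Ew V z Q w
  we : W ≤ V ⊓ Ew V z Q w
  ab : Ew V z Q w ≤ Cc V z Q w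
  e3 : ∀ t ∈ Q, t ∉ C1 w → Ew V z Q w ⊓ CM {t} (UU z w) = Q ⊓ C1 w
  qh : Q ≤ H2 V z Q w
  vh : V ≤ H2 V z Q w
  mh : MM V z ⊓ NN (UU z w) ≤ H2 V z Q w
  cm : MM V z ⊓ Cc V z Q w ≤ Ew V z Q w
  cn : H2 V z Q w ≤ NN (Cc V z Q w)
  um : ∀ x, x ∈ UU z w ↔ x = 1 ∨ x = z ∨ x = w ∨ x = z * w
  two : ∀ R : Subgroup G, IsPGroup 2 R → R ≤ C1 z → Nat.card R ≤ 2 ^ 21
  qn : ∀ R : Subgroup G, IsPGroup 2 R → R ≤ C1 z → Q ≤ R → R ≤ NN Q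

end Data

/-! ### Offenders -/

def MoAStmt : Prop := ∀ (G : Type u) [Group G] [Finite G] (A : Subgroup G),
  (∀ a ∈ A, a * a = 1) → WC A → (∃ g : G, ¬ cj g A ⊓ NN A ≤ A) →
  ∃ (g : G) (X Y : Subgroup G), Y = cj g A ⊓ NN A ∧ X = A ⊓ NN (cj g A) ∧ Off A X Y

def MoQStmt : Prop := ∀ (G : Type u) [Group G] [Finite G] (V : Subgroup G) (z : G)
  (Q W : Subgroup G), (∀ v ∈ V, v * v = 1) → WC V → LC V z Q W → WQ Q z → ¬ SQ Q z →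
  ∃ c ∈ C1 z, ∃ X Y, Cfg Q (cj c Q) z X Y ∧ Y ≤ MM V z

def XsIStmt : Prop := ∀ (G : Type u) [Group G] [Finite G] (Q Q' : Subgroup G) (z : G)
  (X Y : Subgroup G), Cfg Q Q' z X Y → ¬ Q ⊓ CC (Q ⊓ Y) ≤ X →
  ∃ y ∈ Y, y ∉ Q ∧ Nat.card Q ≤ 2 * Nat.card ↥(Q ⊓ CM {y} (zpowers z))

def XsIIStmt : Prop := ∀ (G : Type u) [Group G] [Finite G] (Q Q' : Subgroup G) (z : G)
  (X Y : Subgroup G), Cfg Q Q' z X Y → Q ⊓ CC (Q ⊓ Y) ≤ X → Rad0 Q z X Y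

def XsIIIStmt : Prop := ∀ (G : Type u) [Group G] [Finite G] (Q Q' : Subgroup G) (z : G)
  (X Y : Subgroup G), Cfg Q Q' z X Y → Rad0 Q z X Y → Rad Q z X Y

/-- half rank: the fixed group of an involutory automorphism -/
def XsHStmt : Prop := ∀ (G : Type u) [Group G] [Finite G] (Q : Subgroup G) (z y : G),
  XS Q z → y ∈ NN Q → y ∈ C1 z → y * y ∈ Q →
  2 * Nat.card Q ≤ Nat.card ↥(Q ⊓ CM {y} (zpowers z)) ^ 2 ∧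
  (∀ t ∈ Q, t * y * t⁻¹ * y⁻¹ ∈ Q ⊓ CM {y} (zpowers z) ⊓ CC (Q ⊓ CM {y} (zpowers z))) ∧
  (2 * Nat.card Q = Nat.card ↥(Q ⊓ CM {y} (zpowers z)) ^ 2 →
    Q ⊓ CM {y} (zpowers z) ≤ CC (Q ⊓ CM {y} (zpowers z)))

/-! ### The cocode case -/

def TkStmt : Prop := ∀ (G : Type u) [Group G] [Finite G] (Q : Subgroup G) (z ω : G),
  XS Q z → ω ∈ NN Q → ω ∈ C1 z → orderOf ω = 3 → Q ⊓ CM {ω} (zpowers z) ≤ zpowers z →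
  (∀ y ∈ NN Q, y ∈ C1 z → y * ω * y⁻¹ * ω ∈ Q →
    Nat.card ↥(Q ⊓ CM {y} (zpowers z)) ^ 2 ≤ 2 * Nat.card Q) ∧
  (∀ y ∈ NN Q, y ∈ C1 z → y * ω * y⁻¹ * ω⁻¹ ∈ Q → ω ∈ NN (Q ⊓ CM {y} (zpowers z)) ∧
    ∀ t ∈ Q, (ω * (t * y * t⁻¹ * y⁻¹) * ω⁻¹)⁻¹ *
      ((ω * t * ω⁻¹) * y * (ω * t * ω⁻¹)⁻¹ * y⁻¹) ∈ zpowers z) ∧
  (∀ B : Subgroup G, z ∈ B → B ≤ Q → ω ∈ NN B → B.relIndex Q % 3 = 1) ∧
  ∀ x ∈ Q, x * (ω * x * ω⁻¹) = (ω * x * ω⁻¹) * x → x * x = 1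

def WqTStmt : Prop := ∀ (G : Type u) [Group G] [Finite G] (V : Subgroup G) (z : G)
  (Q W : Subgroup G) (ω : G), (∀ v ∈ V, v * v = 1) → WC V → LC V z Q W → LT V z Q W ω → WQ Q z

def XsTStmt : Prop := ∀ (G : Type u) [Group G] [Finite G] (V : Subgroup G) (z : G)
  (Q Q' W X Y : Subgroup G) (ω : G), LC V z Q W → LT V z Q W ω → Cfg Q Q' z X Y → Rad Q z X Y →
  Y ≤ MM V z → False

/-! ### The code case: weak closure -/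

def NdStmt : Prop := ∀ (G : Type u) [Group G] [Finite G] (V : Subgroup G) (ρ : NN V →* M24) ψ,
  St V ρ → Gol V ρ ψ → ∀ X Y, Off V X Y → ∀ c ∈ dodecads, ψ c ∉ Y

def F2Stmt : Prop := ∀ (G : Type u) [Group G] [Finite G] (V : Subgroup G) (ρ : NN V →* M24) ψ,
  St V ρ → Gol V ρ ψ → ∀ Y : Subgroup G, Y ≤ NN V → (∀ y ∈ Y, y * y = 1) → 2 ^ 10 ≤ Nat.card Y →
  ¬ Y ≤ V → ∀ s ∈ NN V, s ^ 7 = 1 → s ∈ NN (Y ⊓ V) → s = 1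

def F3Stmt : Prop := ∀ (G : Type u) [Group G] [Finite G] (V : Subgroup G) (ρ : NN V →* M24) ψ,
  St V ρ → Gol V ρ ψ → ∀ c ∈ dodecads, ψ c ≠ 1 ∧ (∀ o ∈ octads, ¬ ∃ n ∈ NN V, n * ψ o * n⁻¹ = ψ c) ∧
    ∀ S : Subgroup G, IsPGroup 2 S → S ≤ NN V ⊓ C1 (ψ c) → Nat.card S ≤ 2 ^ 18

def Fg1Stmt : Prop := ∀ (G : Type u) [Group G] [Finite G] (V : Subgroup G) (ρ : NN V →* M24) ψ,
  St V ρ → Gol V ρ ψ → ∀ O ∈ octads, ∀ Q' : Subgroup G, XS Q' (ψ O) → Nat.card Q' = 2 ^ 9 →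
  Q' ≤ NN V → (∀ c ∈ dodecads, ψ c ∉ Q') →
  (∀ n : NN V, (n : G) ∈ Q' → ∀ p ∈ O, ρ n • p = p) ∧ ∀ c, IsWord c → Disjoint c O → ψ c ∈ Q'

def DkStmt : Prop := ∀ (G : Type u) [Group G] [Finite G] (V : Subgroup G) (ρ : NN V →* M24) ψ O
  (Q W : Subgroup G), Gs V ρ ψ O Q W → ∀ q ∈ Q, q ∉ W → ∀ c ∈ dodecads, ∀ g : G,
  g * ψ c * g⁻¹ ≠ q

def WqGStmt : Prop := ∀ (G : Type u) [Group G] [Finite G] (V : Subgroup G) (ρ : NN V →* M24) ψ O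
  (Q W : Subgroup G), Gs V ρ ψ O Q W → WQ Q (ψ O)

/-! ### The code case: the offender -/

def XsG2Stmt : Prop := ∀ (G : Type u) [Group G] [Finite G] (Q Q' : Subgroup G) (z : G)
  (X Y : Subgroup G), Cfg Q Q' z X Y → Rad Q z X Y → Nat.card Q = 2 ^ 9 → Nat.card (RR Q Y) = 4

def XsWStmt : Prop := ∀ (G : Type u) [Group G] [Finite G] (V : Subgroup G) (z : G)
  (Q Q' W X Y : Subgroup G), (∀ v ∈ V, v * v = 1) → LC V z Q W → Cfg Q Q' z X Y → Rad Q z X Y →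
  Y ≤ MM V z → Nat.card (RR Q Y) = 4 →
  ∃ w ∈ W, w ∉ zpowers z ∧ w ∈ Q' ∧ X = Q ⊓ C1 w ∧ Y = Q' ⊓ C1 w ∧ Y ≤ Ew V z Q w

def EkStmt : Prop := ∀ (G : Type u) [Group G] [Finite G] (V : Subgroup G) (ρ : NN V →* M24) ψ O
  (Q W : Subgroup G), Gs V ρ ψ O Q W → WQ Q (ψ O) → ∀ w ∈ W, w ∉ zpowers (ψ O) →
  Ek V (ψ O) Q W w

def K1Stmt : Prop := ∀ (G : Type u) [Group G] [Finite G] (V : Subgroup G) (ρ : NN V →* M24) ψ O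
  (Q W : Subgroup G), Gs V ρ ψ O Q W → WQ Q (ψ O) → ∀ w ∈ W, w ∉ zpowers (ψ O) →
  Ek V (ψ O) Q W w → ∀ c ∈ C1 (ψ O), w ∈ cj c Q → cj c Q ⊓ C1 w ≤ Ew V (ψ O) Q w →
  ¬ cj c Q ⊓ C1 w ≤ Q → Q ⊓ C1 w ≤ NN (cj c Q) → ¬ H2 V (ψ O) Q w ≤ NN (Q ⊓ C1 w)

def K2aStmt : Prop := ∀ (G : Type u) [Group G] [Finite G] (V : Subgroup G) (ρ : NN V →* M24) ψ O
  (Q W : Subgroup G), Gs V ρ ψ O Q W → WQ Q (ψ O) → ∀ w ∈ W, w ∉ zpowers (ψ O) →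
  Ek V (ψ O) Q W w → ∀ t ∈ Q, t ∉ C1 w → ∃ F : Subgroup G, Cc V (ψ O) Q w ≤ F ∧
    F ≤ H2 V (ψ O) Q w ∧ H2 V (ψ O) Q w ≤ NN F ∧ Odd ((Cc V (ψ O) Q w).relIndex F) ∧
    ∀ h ∈ H2 V (ψ O) Q w, t * h * t⁻¹ * h⁻¹ ∈ F

def K2bStmt : Prop := ∀ (G : Type u) [Group G] [Finite G] (V : Subgroup G) (ρ : NN V →* M24) ψ O
  (Q W : Subgroup G), Gs V ρ ψ O Q W → ∀ w ∈ W, w ∉ zpowers (ψ O) → Ek V (ψ O) Q W w →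
  ∀ V₀ : Subgroup G, V ⊓ Ew V (ψ O) Q w ≤ V₀ → V₀ ≤ V → Nat.card V₀ = 2 ^ 10 →
  H2 V (ψ O) Q w ⊓ CM V₀ (Cc V (ψ O) Q w) ≤ NN W

def K2cStmt : Prop := ∀ (G : Type u) [Group G] [Finite G] (V : Subgroup G) (ρ : NN V →* M24) ψ O
  (Q W : Subgroup G), Gs V ρ ψ O Q W → ∀ w ∈ W, w ∉ zpowers (ψ O) → Ek V (ψ O) Q W w →
  ∀ t ∈ Q, t ∉ C1 w → ∀ F : Subgroup G, Cc V (ψ O) Q w ≤ F → F ≤ H2 V (ψ O) Q w → t ∈ NN F →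
  V ≤ NN F → Odd ((Cc V (ψ O) Q w).relIndex F) → F ≤ CM W (UU (ψ O) w) → F ≤ Cc V (ψ O) Q w

def K2dStmt : Prop := ∀ (G : Type u) [Group G] [Finite G] (V : Subgroup G) (ρ : NN V →* M24) ψ O
  (Q W : Subgroup G), Gs V ρ ψ O Q W → ∀ w ∈ W, w ∉ zpowers (ψ O) → Ek V (ψ O) Q W w →
  ∀ t ∈ Q, t ∉ C1 w → ∀ F : Subgroup G, Cc V (ψ O) Q w ≤ F → F ≤ H2 V (ψ O) Q w →
  H2 V (ψ O) Q w ≤ NN F → Odd ((Cc V (ψ O) Q w).relIndex F) →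
  ∀ f ∈ F, t * f * t⁻¹ * f⁻¹ ∈ Cc V (ψ O) Q w

def K2Stmt : Prop := ∀ (G : Type u) [Group G] [Finite G] (V : Subgroup G) (ρ : NN V →* M24) ψ O
  (Q W : Subgroup G), Gs V ρ ψ O Q W → WQ Q (ψ O) → ∀ w ∈ W, w ∉ zpowers (ψ O) →
  Ek V (ψ O) Q W w → H2 V (ψ O) Q w ≤ NN (Q ⊓ C1 w)

/-! ### From strong closure to normality -/

def Gl1Stmt : Prop := ∀ (L : Type u) [Group L] [Finite L], IsSimpleGroup L →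
  ¬ IsMulCommutative L → IsGoldschmidtGroup L →
  (∀ T : Sylow 2 L, ∀ x ∈ (T : Subgroup L), x * x = 1 → ∀ y ∈ (T : Subgroup L), x * y = y * x) ∧
  ∀ x y : L, orderOf x = 2 → orderOf y = 2 → IsConj x y

def GenStmt : Prop := ∀ (H : Type u) [Group H] [Finite H] (S : Sylow 2 H) (A : Subgroup H),
  pPrimeCore 2 H = ⊥ → (∀ a ∈ A, a * a = 1) → IsStronglyClosed A (S : Subgroup H) →
  (S : Subgroup H) ⊓ CC A ≤ A → (∀ B : Subgroup H, B.Normal → B ≤ A → B = ⊥) →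
  (∀ F : Subgroup H, CC A ≤ F → F ≤ NN A → NN A ≤ NN F → Odd ((CC A).relIndex F) →
    (CC A).relIndex F ≤ 3) → Nat.card A ≤ 4

def GoStmt : Prop := ∀ (G : Type u) [Group G] [Finite G] (V : Subgroup G) (z : G)
  (Q W : Subgroup G), (∀ v ∈ V, v * v = 1) → WC V → LC V z Q W → ∀ F : Subgroup G,
  C1 z ⊓ NN Q ⊓ CM Q (zpowers z) ≤ F → F ≤ C1 z ⊓ NN Q → C1 z ⊓ NN Q ≤ NN F →
  Odd ((C1 z ⊓ NN Q ⊓ CM Q (zpowers z)).relIndex F) →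
  (C1 z ⊓ NN Q ⊓ CM Q (zpowers z)).relIndex F ≤ 3

def GwStmt : Prop := ∀ (G : Type u) [Group G] [Finite G] (V : Subgroup G) (z : G)
  (Q W : Subgroup G), (∀ v ∈ V, v * v = 1) → WC V → LC V z Q W →
  pPrimeCore 2 ↥(C1 z) = ⊥ → (C1 z ≤ NN W → C1 z ≤ NN V) ∧ (C1 z ≤ NN Q → CC Q ≤ Q)

/-! ### The centralizer does not normalize `V` -/

def OffGStmt : Prop := ∀ (G : Type u) [Group G] [Finite G] (V : Subgroup G) (ρ : NN V →* M24) ψ,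
  St V ρ → Gol V ρ ψ → ∀ X Y, Off V X Y → ∃ o ∈ octads, ψ o ∈ Y

def OffTStmt : Prop := ∀ (G : Type u) [Group G] [Finite G] (V : Subgroup G) (ρ : NN V →* M24) ψ,
  St V ρ → Tod V ρ ψ → ∀ X Y, Off V X Y → ∃ t : Finset GolayPt, t.card = 4 ∧ ψ t ∈ Y

/-- `V` is not strongly closed in a simple group -/
def NsStmt : Prop := ∀ (G : Type u) [Group G] [Finite G] (V : Subgroup G) (ρ : NN V →* M24),
  St V ρ → WC V → IsSimpleGroup G → ∃ g : G, ¬ cj g V ⊓ NN V ≤ V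

def NcGStmt : Prop := ∀ (G : Type u) [Group G] [Finite G] (V : Subgroup G) (ρ : NN V →* M24) ψ,
  St V ρ → Gol V ρ ψ → WC V → IsSimpleGroup G → ∀ O ∈ octads, ¬ C1 (ψ O) ≤ NN V

def NcTStmt : Prop := ∀ (G : Type u) [Group G] [Finite G] (V : Subgroup G) (ρ : NN V →* M24) ψ,
  St V ρ → Tod V ρ ψ → WC V → IsSimpleGroup G → ∀ t : Finset GolayPt, t.card = 4 →
  ¬ C1 (ψ t) ≤ NN V

/-- `Q` is the largest normal 2-subgroup of the centralizer -/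
def O2Stmt : Prop := ∀ (G : Type u) [Group G] [Finite G] (V : Subgroup G) (z : G)
  (Q W : Subgroup G), (∀ v ∈ V, v * v = 1) → WC V → LC V z Q W → LX Q z →
  pPrimeCore 2 ↥(C1 z) = ⊥ → ¬ C1 z ≤ NN V →
  ∀ R : Subgroup G, IsPGroup 2 R → R ≤ C1 z → C1 z ≤ NN R → R ≤ Q

def EndG0Stmt : Prop := ∀ (G : Type u) [Group G] [Finite G] (Q : Subgroup G) (z : G),
  IsSimpleGroup G → LX Q z → Nat.card Q = 2 ^ 9 → 2 ^ 21 ∣ Nat.card G →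
  (∀ R : Subgroup G, IsPGroup 2 R → R ≤ C1 z → C1 z ≤ NN R → R ≤ Q) → Spor.IsoCo1 G

def EndT0Stmt : Prop := ∀ (G : Type u) [Group G] [Finite G] (V : Subgroup G) (ρ : NN V →* M24) ψ,
  St V ρ → Tod V ρ ψ → WC V → IsSimpleGroup G → ∀ t : Finset GolayPt, t.card = 4 →
    ∀ Q W ω, LC V (ψ t) Q W → LT V (ψ t) Q W ω → LX Q (ψ t) → ¬ C1 (ψ t) ≤ NN V →
      (∀ R : Subgroup G, IsPGroup 2 R → R ≤ C1 (ψ t) → C1 (ψ t) ≤ NN R → R ≤ Q) →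
      IsOfJankoFourType G ∨ IsFi24' G

end Cfsg.Agent.H18.Rf
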