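import Cfsg.Agent.H25.UGDefs

set_option autoImplicit false

namespace Cfsg.Agent.H18.UgLev7

open Cfsg Module Cfsg.Agent.H31 Cfsg.Agent.H77.Sg Cfsg.Agent.H25.UG

universe u

theorem mem_rt {K : Type u} [Field K] {m : ℕ} {s : Kˣ} : s ∈ Rt K m ↔ s ^ m = 1 := by
  simp [MonoidHom.mem_ker]

theorem split {A : Type*} [CommGroup A] {m n : ℕ} (h : m.Coprime n) {x : A}
    (hx : x ^ (m * n) = 1) : ∃ a b : A, a ^ m = 1 ∧ b ^ n = 1 ∧ x = a * b := by
  have e := Nat.gcd_eq_gcd_ab m n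
  rw [h] at e
  have hx' : x ^ ((m : ℤ) * n) = 1 := by rw [← Nat.cast_mul, zpow_natCast, hx]
  refine ⟨x ^ ((n : ℤ) * Nat.gcdB m n), x ^ ((m : ℤ) * Nat.gcdA m n), ?_, ?_, ?_⟩
  · rw [← zpow_natCast, ← zpow_mul, show (n : ℤ) * Nat.gcdB m n * m = m * n * Nat.gcdB m n by ring,
      zpow_mul, hx', one_zpow]
  · rw [← zpow_natCast, ← zpow_mul, show (m : ℤ) * Nat.gcdA m n * n = m * n * Nat.gcdA m n by ring,
      zpow_mul, hx', one_zpow]
  · rw [← zpow_add, add_comm, ← e]; simp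

/-- separation -/
theorem sep {K : Type u} [Field K] [Finite K] {q : ℕ} (hq : 4 ≤ q)
    (hc : Nat.card (Ch K q) = q + 1) (I : Finset (Ch K q)) (hI : q ≤ I.card + 1)
    (ζ : Rt K (q + 1)) (hζ : ζ ≠ 1) : ∃ ν ∈ I, ν ζ ≠ 1 := by
  by_contra hn
  push Not at hn
  have : Finite (Ch K q) := Nat.finite_of_card_ne_zero (by omega)
  let S : Subgroup (Ch K q) :=
    { carrier := {ν | ν ζ = 1}
      one_mem' := rfl
      mul_mem' := fun {a b} ha hb => by
        show a ζ * b ζ = 1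
        rw [ha, hb, one_mul]
      inv_mem' := fun {a} ha => by
        show (a ζ)⁻¹ = 1
        rw [ha, inv_one] }
  have hne : NeZero (Monoid.exponent (Rt K (q + 1))) := ⟨Monoid.exponent_ne_zero_of_finite⟩
  obtain ⟨φ, hφ⟩ := CommGroup.exists_apply_ne_one_of_hasEnoughRootsOfUnity (Rt K (q + 1)) ℂ hζ
  have h1 : S.index ≠ 1 := fun h => hφ (by
    have : φ ∈ S := by rw [Subgroup.index_eq_one.1 h]; trivial
    exact this)
  have h2 : S.index ≠ 0 := Subgroup.index_ne_zero_of_finite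
  have h3 := S.card_mul_index
  have h4 : I.card ≤ Nat.card S := by
    rw [← Nat.card_eq_finsetCard]
    exact Nat.card_le_card_of_injective (fun x : I => (⟨x.1, hn x.1 x.2⟩ : S))
      fun a b e => Subtype.ext (congrArg (fun t : S => (t : Ch K q)) e)
  have h5 : Nat.card S * 2 ≤ Nat.card S * S.index := Nat.mul_le_mul_left _ (by omega)
  omega

theorem dvd_card {K : Type*} [AddCommGroup K] (S : AddSubgroup K) (X : Set K)
    (h : ∀ x ∈ X, ∀ s ∈ S, x + s ∈ X) : Nat.card S ∣ Nat.card X := by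
  have e : (QuotientAddGroup.mk : K → K ⧸ S) ⁻¹' (QuotientAddGroup.mk '' X) = X := by
    refine Set.Subset.antisymm ?_ (Set.subset_preimage_image _ _)
    rintro y ⟨x, hx, hxy⟩
    have := h x hx _ (QuotientAddGroup.eq.1 hxy)
    simpa using this
  rw [← e, Nat.card_congr (QuotientAddGroup.preimageMkEquivAddSubgroupProdSet S _), Nat.card_prod]
  exact dvd_mul_right _ _

theorem lev7 (h0 : Lev0Stmt.{u}) : Lev7Stmt.{u} := by
  intro E K _ _ _ _ _ σ B q t G ψ I h cu fn hI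
  have kt := cu.toKt
  have q13 := kt.q13 rfl
  have h7 : 7 ∣ q + 1 := by
    rcases kt.hR with h | h
    · omega
    · exact h.2
  have hT := kt.card
  have sp := sep (by omega) kt.cardCh I hI
  -- the values on `Z P`
  have vC : ∀ ν ∈ I, ∀ (z : Rt K (q + 1)), ∀ p ∈ Rt K t, h ν (z * p) = ν z := by
    intro ν hν z p hp
    rw [fn.hz ν hν z p (kt.PT hp)]
    have := fn.hp ν hν p hp 1 (one_mem _)
    rw [mul_one] at this
    rw [this, fn.h1 ν hν, mul_one]
  -- vanishing outside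
  have vO : ∀ s ∈ Rt K (q ^ 7 + 1), (¬ ∃ z ∈ Rt K (q + 1), ∃ p ∈ Rt K t, s = z * p) →
      ∃ ν ∈ I, h ν s = 0 := by
    intro s hs hn
    have hs' : s ^ (7 * (q + 1) * t) = 1 := by rw [← hT]; exact mem_rt.1 hs
    obtain ⟨k, rfl⟩ : ∃ k, q = k + 1 := ⟨q - 1, by omega⟩
    have hu : (s ^ ((k + 1 + 1) * k)) ^ (7 * t) = 1 := by
      rw [← pow_mul, show (k + 1 + 1) * k * (7 * t) = 7 * (k + 1 + 1) * t * k by ring, pow_mul, hs',
        one_pow]
    obtain ⟨a, b, ha, hb, e⟩ := split kt.cop7.symm hu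
    have haZ : a ∈ Rt K (k + 1 + 1) := by
      obtain ⟨c, hc⟩ := h7
      rw [mem_rt, hc, pow_mul, ha, one_pow]
    have ha1 : (⟨a, haZ⟩ : Rt K (k + 1 + 1)) ≠ 1 := by
      intro h1
      have h1' : a = 1 := congrArg Subtype.val h1
      rw [h1', one_mul] at e
      have e1 : (s ^ ((k + 1 + 1) * t)) ^ k = 1 := by
        rw [← pow_mul, show (k + 1 + 1) * t * k = (k + 1 + 1) * k * t by ring, pow_mul, e, hb]
      have e2 : (s ^ ((k + 1 + 1) * t)) ^ 7 = 1 := by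
        rw [← pow_mul, show (k + 1 + 1) * t * 7 = 7 * (k + 1 + 1) * t by ring, hs']
      have hk : Nat.Coprime 7 k := (Nat.Prime.coprime_iff_not_dvd (by norm_num)).2 (by omega)
      have e3 : s ^ ((k + 1 + 1) * t) = 1 := by
        have := pow_gcd_eq_one.2 ⟨e2, e1⟩
        rwa [hk, pow_one] at this
      obtain ⟨z, p, hz, hp, rfl⟩ := split kt.cop1.symm e3
      exact hn ⟨z, mem_rt.2 hz, p, mem_rt.2 hp, rfl⟩
    obtain ⟨ν, hν, hne⟩ := sp _ ha1
    refine ⟨ν, hν, ?_⟩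
    have e4 : s ^ (k + 1) ^ 2 = a * (b * s) := by
      rw [← mul_assoc, ← e, ← pow_succ]; congr 1; ring
    have e5 := fn.hf ν hν s hs
    have hbP : b ∈ Rt K t := mem_rt.2 hb
    have e6 := fn.hz ν hν ⟨a, haZ⟩ (b * s) (mul_mem (kt.PT hbP) hs)
    rw [fn.hp ν hν b hbP s hs] at e6
    rw [e4] at e5
    have e7 : ((ν ⟨a, haZ⟩ : ℂ) - 1) * h ν s = 0 := by
      rw [sub_mul, one_mul, ← e6]; exact sub_eq_zero.2 e5
    rcases mul_eq_zero.1 e7 with h1 | h1
    · exact absurd (Units.ext (sub_eq_zero.1 h1)) hne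
    · exact h1
  have nz : ∀ z ∈ Rt K (q + 1), ∀ p ∈ Rt K t, p ≠ 1 → z * p ∉ Rt K (q + 1) := by
    intro z hz p hp h1 hh
    exact h1 (kt.ZP p (by simpa using mul_mem (inv_mem hz) hh) hp)
  have ne1 : ∀ s : Kˣ, s ∉ Rt K (q + 1) → s ≠ 1 := fun s hs e => hs (e ▸ one_mem _)
  -- translates stay in `Z P`
  have st : ∀ z ∈ Rt K (q + 1), ∀ p ∈ Rt K t, p ≠ 1 → ∀ c : E, c + σ c = 0 →
      ∃ z' ∈ Rt K (q + 1), ∃ p' ∈ Rt K t, p' ≠ 1 ∧
        kap (z' * p') = kap (z * p) + algebraMap E K c := by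
    intro z hz p0 hp0 h1 c hc
    have hs0 : z * p0 ∈ Rt K (q ^ 7 + 1) := mul_mem (kt.ZT hz) (kt.PT hp0)
    obtain ⟨r, hr, hrZ, er⟩ := kt.trn _ hs0 (nz z hz p0 hp0 h1) c hc
    by_cases hC : ∃ z ∈ Rt K (q + 1), ∃ p ∈ Rt K t, r = z * p
    · obtain ⟨z', hz', p', hp', rfl⟩ := hC
      exact ⟨z', hz', p', hp', fun e => hrZ (by rw [e, mul_one]; exact hz'), er⟩
    exfalso
    have hc' : -c + σ (-c) = 0 := by rw [map_neg, ← neg_add, hc, neg_zero]
    have key : ∀ p : Rt K t, ∃ p' : Rt K t, p' ≠ 1 ∧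
        kap (z * (p' : Kˣ)) = kap ((p : Kˣ) * r) + algebraMap E K (-c) := by
      intro p
      have hpr : (p : Kˣ) * r ∈ Rt K (q ^ 7 + 1) := mul_mem (kt.PT p.2) hr
      have hprZ : (p : Kˣ) * r ∉ Rt K (q + 1) := fun hh =>
        hC ⟨_, hh, p⁻¹, inv_mem p.2, by simp [mul_comm]⟩
      obtain ⟨r', hr', hr'Z, er'⟩ := kt.trn _ hpr hprZ (-c) hc'
      have lv := h0 E K σ B q 7 t G ψ I h cu fn r hr (p * r) hpr (z * p0) hs0 r' hr' hrZ hprZ
        (nz z hz p0 hp0 h1) hr'Z (-c) (by rw [er, map_neg]; ring) er'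
        (fun ν hν => (fn.hp ν hν p p.2 r hr).symm)
      have hC' : ∃ z ∈ Rt K (q + 1), ∃ p ∈ Rt K t, r' = z * p := by
        by_contra hn
        obtain ⟨ν, hν, e⟩ := vO r' hr' hn
        have := lv ν hν
        rw [e, vC ν hν ⟨z, hz⟩ p0 hp0] at this
        exact Units.ne_zero _ this
      obtain ⟨z', hz', p', hp', rfl⟩ := hC'
      have ez : (⟨z', hz'⟩ : Rt K (q + 1)) * (⟨z, hz⟩ : Rt K (q + 1))⁻¹ = 1 := by
        by_contra hn
        obtain ⟨ν, hν, e⟩ := sp _ hn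
        have := lv ν hν
        rw [vC ν hν ⟨z, hz⟩ p0 hp0, vC ν hν ⟨z', hz'⟩ p' hp'] at this
        apply e
        rw [map_mul, map_inv, Units.ext this, mul_inv_cancel]
      have ez' : z' = z := congrArg Subtype.val (mul_inv_eq_one.1 ez)
      subst ez'
      refine ⟨⟨p', hp'⟩, fun e => hr'Z ?_, er'⟩
      have : p' = 1 := congrArg Subtype.val e
      rw [this, mul_one]; exact hz'
    choose f hf1 hf2 using key
    have hPr : ∀ p : Rt K t, (p : Kˣ) * r ≠ 1 := fun p e =>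
      hC ⟨1, one_mem _, p⁻¹, inv_mem p.2, by
        rw [one_mul]; exact (eq_inv_of_mul_eq_one_right e)⟩
    have inj : Function.Injective f := by
      intro a b e
      have e1 := hf2 a
      rw [e, hf2 b, add_left_inj] at e1
      have := kt.kapI _ _ (hPr b) (hPr a) e1
      exact Subtype.ext (mul_right_cancel this).symm
    obtain ⟨a, ha⟩ := (Finite.injective_iff_surjective.1 inj) 1
    exact hf1 a ha
  -- counting
  let F : Rt K (q + 1) × {p : Rt K t // p ≠ 1} → K := fun x => kap ((x.1 : Kˣ) * (x.2.1 : Kˣ))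
  have pn : ∀ p : {p : Rt K t // p ≠ 1}, (p.1 : Kˣ) ≠ 1 := fun p e => p.2 (Subtype.ext e)
  have hF : Function.Injective F := by
    rintro ⟨z, p⟩ ⟨z', p'⟩ e
    have e1 := kt.kapI _ _ (ne1 _ (nz z z.2 p.1 p.1.2 (pn p))) (ne1 _ (nz z' z'.2 p'.1 p'.1.2 (pn p'))) e
    have e2 : ((z' : Kˣ)⁻¹ * z) = (p'.1 : Kˣ) * (p.1 : Kˣ)⁻¹ := by
      rw [inv_mul_eq_iff_eq_mul, ← mul_assoc, eq_mul_inv_iff_mul_eq]; exact e1
    have e3 := kt.ZP _ (mul_mem (inv_mem z'.2) z.2) (e2 ▸ mul_mem p'.1.2 (inv_mem p.1.2))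
    have e4 : z = z' := Subtype.ext (inv_mul_eq_one.1 e3).symm
    rw [e3] at e2
    have e5 : p = p' := Subtype.ext (Subtype.ext (mul_inv_eq_one.1 e2.symm).symm)
    rw [e4, e5]
  let S0 : AddSubgroup E :=
    { carrier := {c | c + σ c = 0}
      zero_mem' := by simp
      add_mem' := fun {a b} ha hb => by
        show a + b + σ (a + b) = 0
        have ha' : a + σ a = 0 := ha
        have hb' : b + σ b = 0 := hb
        rw [map_add]; linear_combination ha' + hb'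
      neg_mem' := fun {a} ha => by
        show -a + σ (-a) = 0
        have ha' : a + σ a = 0 := ha
        rw [map_neg]; linear_combination -ha' }
  have d := dvd_card (S0.map (algebraMap E K).toAddMonoidHom) (Set.range F) (by
    rintro _ ⟨⟨z, p⟩, rfl⟩ _ ⟨c, hc, rfl⟩
    obtain ⟨z', hz', p', hp', h1, e⟩ := st z z.2 p.1 p.1.2 (pn p) c hc
    exact ⟨⟨⟨z', hz'⟩, ⟨⟨p', hp'⟩, fun e => h1 (congrArg Subtype.val e)⟩⟩, e⟩)
  have c1 : Nat.card (S0.map (algebraMap E K).toAddMonoidHom) = q := by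
    rw [← Nat.card_congr (S0.equivMapOfInjective _ (algebraMap E K).injective).toEquiv]
    exact kt.cardS
  have c2 : Nat.card {p : Rt K t // p ≠ 1} = t - 1 := by
    classical
    have := Fintype.ofFinite (Rt K t)
    have c := kt.cardP
    rw [Nat.card_eq_fintype_card] at c ⊢
    rw [Fintype.card_subtype_compl, c, Fintype.card_unique]
  rw [c1, Nat.card_range_of_injective hF, Nat.card_prod, kt.cardZ, c2] at d
  have t43 := kt.t43
  obtain ⟨m, rfl⟩ : ∃ m, t = m + 1 := ⟨t - 1, by omega⟩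
  rw [Nat.add_sub_cancel] at d
  have d2 : q ∣ m := (Nat.Coprime.dvd_of_dvd_mul_left (by simp) d)
  have d3 : q ∣ 6 := by
    have e : q ^ 7 = 6 + (7 * q * (m + 1) + 7 * m) := by
      have : 7 * (q + 1) * (m + 1) = 7 + (7 * q * (m + 1) + 7 * m) := by ring
      omega
    have d4 : q ∣ 7 * q * (m + 1) + 7 * m :=
      dvd_add (Dvd.intro_left (7 * (m + 1)) (by ring)) (Dvd.dvd.mul_left d2 7)
    have d5 : q ∣ q ^ 7 := dvd_pow_self q (by norm_num)
    rw [e] at d5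
    exact (Nat.dvd_add_left d4).1 d5
  have := Nat.le_of_dvd (by norm_num) d3
  omega

end Cfsg.Agent.H18.UgLev7
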