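import Mathlib
import Cfsg.Agent.H92.W3C

/-! Width 3: the centralizer of `z` does not interchange two Lagrangian subspaces. -/

set_option autoImplicit false

namespace Cfsg.Agent.H18.W3

open Subgroup Cfsg.Agent.H49 Cfsg.Agent.H69.XV Cfsg.Agent.H69.XV.VD Cfsg.Agent.H92.Lx
  Cfsg.Agent.H92.W3

universe u

variable {G : Type u} [Group G] [Finite G] {V : Type*} [AddCommGroup V] [Module (ZMod 2) V] {z : G}

/-- `c` maps `A` into `B` -/
def Mp (d : VD (O2C z) z V) (c : G) (A B : Submodule (ZMod 2) V) : Prop := ∀ u ∈ A, d.ρ c u ∈ B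

/-- two complementary Lagrangian subspaces permuted by the centralizer -/
structure L2 (d : VD (O2C z) z V) (U₁ U₂ : Submodule (ZMod 2) V) : Prop where
  c64 : Nat.card V = 64
  c1 : Nat.card U₁ = 8
  p1 : d.perp U₁ = U₁
  p2 : d.perp U₂ = U₂
  hi : ∀ u ∈ U₁, u ∈ U₂ → u = 0
  pm : ∀ c, c * z = z * c → (Mp d c U₁ U₁ ∧ Mp d c U₂ U₂) ∨ (Mp d c U₁ U₂ ∧ Mp d c U₂ U₁)

variable {d : VD (O2C z) z V} {U₁ U₂ : Submodule (ZMod 2) V}

theorem dec0 (p1 : d.perp U₁ = U₁) (p2 : d.perp U₂ = U₂) (hi : ∀ u ∈ U₁, u ∈ U₂ → u = 0) (v : V) :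
    ∃ a ∈ U₁, ∃ b ∈ U₂, a + b = v :=
  Submodule.mem_sup.1 (d.mem_of_perp fun u hu => by
    rw [hi u (p1 ▸ d.mem_perp.2 fun w hw => hu w (Submodule.mem_sup_left hw))
      (p2 ▸ d.mem_perp.2 fun w hw => hu w (Submodule.mem_sup_right hw)), map_zero]
    rfl)

theorem ex_ker2 {W : Submodule (ZMod 2) V} (h : Nat.card W = 8) (a b : V) :
    ∃ u ∈ W, u ≠ 0 ∧ d.B a u = 0 ∧ d.B b u = 0 := by
  have := d.finite
  have h1 := sub_card_le_two_mul W (d.B a)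
  have h2 := sub_card_le_two_mul (W ⊓ LinearMap.ker (d.B a)) (d.B b)
  by_contra hc
  have : W ⊓ LinearMap.ker (d.B a) ⊓ LinearMap.ker (d.B b) = ⊥ := (Submodule.eq_bot_iff _).2
    fun u hu => by_contra fun e => hc ⟨u, hu.1.1, e, hu.1.2, hu.2⟩
  rw [this, Nat.card_unique (α := (⊥ : Submodule (ZMod 2) V))] at h2
  omega

namespace L2

variable (h : L2 d U₁ U₂)
include h

omit [Finite G] in
theorem B1 {a b : V} (ha : a ∈ U₁) (hb : b ∈ U₁) : d.B a b = 0 := d.mem_perp.1 (h.p1.ge hb) a ha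

omit [Finite G] in
theorem eq0 {a : V} (ha : a ∈ U₁) (e : ∀ w ∈ U₂, d.B w a = 0) : a = 0 :=
  h.hi a ha (h.p2.le (d.mem_perp.2 e))

theorem ex0 : ∃ t ∈ U₁, t ≠ 0 := by
  obtain ⟨t, ht, t0, -⟩ := ex_ker2 (d := d) h.c1 0 0
  exact ⟨t, ht, t0⟩

/-- the stabilizer of `U₁` -/
def K : Subgroup G where
  carrier := {c | c * z = z * c ∧ Mp d c U₁ U₁}
  one_mem' := ⟨by simp, fun u hu => by rwa [d.ρ_one]⟩
  mul_mem' := fun ha hb => ⟨cmul ha.1 hb.1, fun u hu => by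
    rw [d.ρ_mul ha.1 hb.1]; exact ha.2 _ (hb.2 u hu)⟩
  inv_mem' := fun {c} hc => ⟨cinv hc.1, ((h.pm _ (cinv hc.1)).resolve_right fun e => by
    obtain ⟨t, ht, t0⟩ := h.ex0
    exact t0 (h.hi t ht (d.ρ_inv_ρ hc.1 t ▸ e.1 _ (hc.2 t ht)))).1⟩

theorem K2 {c : G} (hc : c ∈ h.K) : Mp d c U₂ U₂ :=
  ((h.pm c hc.1).resolve_right fun e => by
    obtain ⟨t, ht, t0⟩ := h.ex0
    exact ρ_ne_zero hc.1 t0 (h.hi _ (hc.2 t ht) (e.1 t ht))).2

theorem sw {c : G} (hc : c * z = z * c) (hn : c ∉ h.K) : Mp d c U₁ U₂ ∧ Mp d c U₂ U₁ :=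
  (h.pm c hc).resolve_left fun e => hn ⟨hc, e.1⟩

theorem i2 (h128 : Nat.card (O2C z) = 128) {r : G} (rz : r * z = z * r) (hr : r ∉ h.K) :
    I2 z h.K := by
  refine ⟨d.lx, fun c hc => mem_centralizer_singleton_iff.2 hc.1, relIndex_eq_two_iff.2
    ⟨r, mem_centralizer_singleton_iff.2 rz, fun b hb => ?_⟩,
    fun c hc => ⟨d.xs.cen c hc, fun u hu => by rwa [d.ρ_Q hc]⟩, fun t ip a ha az => ?_⟩
  · have bz := mem_centralizer_singleton_iff.1 hb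
    by_cases e : b ∈ h.K
    · exact .inr ⟨e, fun e' => hr ((h.K.mul_mem_cancel_left e).1 e')⟩
    · exact .inl ⟨⟨cmul bz rz, fun u hu => by
        rw [d.ρ_mul bz rz]; exact (h.sw bz e).2 _ ((h.sw rz hr).1 u hu)⟩, e⟩
  · by_contra hn
    obtain ⟨w, -, hs⟩ := exists_sg ip h128 d ha az
    obtain ⟨u, hu, u0, e1, e2⟩ := ex_ker2 (d := d) h.c1 (d.p t) w
    have := (h.sw az hn).1 u hu
    rw [hs u, d.B_symm u, d.B_symm u, e1, e2] at this
    exact u0 (h.hi u hu (by simpa using this))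

theorem sep {W : Submodule (ZMod 2) V} (hW : W ≤ U₁) {x : V} (hx : x ∈ U₁) (hn : x ∉ W) :
    ∃ w ∈ U₂, (∀ a ∈ W, d.B a w = 0) ∧ d.B x w = 1 := by
  obtain ⟨u, h1, h2⟩ := exists_sep (d := d) hn
  obtain ⟨a, ha, b, hb, rfl⟩ := dec0 h.p1 h.p2 h.hi u
  refine ⟨b, hb, fun c hc => ?_, z2_ne ?_⟩
  · have := h1 c hc
    rwa [B_addr, h.B1 (hW hc) ha, zero_add] at this
  · rwa [B_addl, h.B1 ha hx, zero_add, d.B_symm] at h2

/-- all transvections of `U₁` are induced -/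
def TV : Prop := ∀ s ∈ U₁, s ≠ 0 → ∀ w ∈ U₂, d.B s w = 0 →
  ∃ k ∈ h.K, ∀ u ∈ U₁, d.ρ k u = u + d.B u w • s

theorem tv (ht : h.TV) {W : Submodule (ZMod 2) V} (hW : W ≤ U₁) {x y : V} (hx : x ∈ U₁)
    (hy : y ∈ U₁) (nx : x ∉ W) (ny : y ∉ W) : ∃ k ∈ h.K, (∀ a ∈ W, d.ρ k a = a) ∧ d.ρ k x = y := by
  by_cases e : x = y
  · exact ⟨1, one_mem _, fun a _ => d.ρ_one a, e ▸ d.ρ_one x⟩
  obtain ⟨w, hw, h1, h2⟩ := h.sep (W := W ⊔ Submodule.span (ZMod 2) {x + y})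
    (sup_le hW ((Submodule.span_singleton_le_iff_mem _ _).2 (add_mem hx hy))) hx fun c => by
      obtain ⟨a, ha, b, hb, e1⟩ := Submodule.mem_sup.1 c
      obtain ⟨c, rfl⟩ := Submodule.mem_span_singleton.1 hb
      rcases z2 c with rfl | rfl
      · exact nx (by rwa [← e1, zero_smul, add_zero])
      · have : y = a := by linear_combination (norm := ch2) e1
        exact ny (this ▸ ha)
  obtain ⟨k, hk, e1⟩ := ht _ (add_mem hx hy) (fun c => e (H69.XV.add_eq_zero.1 c)) w hw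
    (h1 _ (Submodule.mem_sup_right (Submodule.mem_span_singleton_self _)))
  exact ⟨k, hk, fun a ha => by rw [e1 a (hW ha), h1 a (Submodule.mem_sup_left ha), zero_smul, add_zero],
    by rw [e1 x hx, h2, one_smul, add_add_cancel]⟩

theorem trans (ht : h.TV) : ∀ (n : ℕ) (e g : Fin n → V), (∀ i, e i ∈ U₁) → (∀ i, g i ∈ U₁) →
    LinearIndependent (ZMod 2) e → LinearIndependent (ZMod 2) g →
    ∃ k ∈ h.K, ∀ i, d.ρ k (e i) = g i := by
  intro n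
  induction n with
  | zero => exact fun _ _ _ _ _ _ => ⟨1, one_mem _, fun i => i.elim0⟩
  | succ n ih =>
    intro e g he hg ie ig
    rw [linearIndependent_finSucc] at ie ig
    obtain ⟨k, hk, e1⟩ := ih _ _ (fun i => he i.succ) (fun i => hg i.succ) ie.1 ig.1
    obtain ⟨k', hk', e2, e3⟩ := h.tv ht (W := Submodule.span (ZMod 2) (Set.range (Fin.tail g)))
      (Submodule.span_le.2 (by rintro _ ⟨i, rfl⟩; exact hg i.succ)) (hk.2 _ (he 0)) (hg 0)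
      (fun c => ie.2 (by
        have : Submodule.span (ZMod 2) (Set.range (Fin.tail g)) ≤
            (Submodule.span (ZMod 2) (Set.range (Fin.tail e))).comap (d.ρ k⁻¹) :=
          Submodule.span_le.2 (by
            rintro _ ⟨i, rfl⟩
            rw [SetLike.mem_coe, Submodule.mem_comap, Fin.tail, ← e1 i, d.ρ_inv_ρ hk.1]
            exact Submodule.subset_span ⟨i, rfl⟩)
        exact d.ρ_inv_ρ hk.1 (e 0) ▸ this c)) ig.2
    refine ⟨k' * k, mul_mem hk' hk, fun i => ?_⟩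
    rw [d.ρ_mul hk'.1 hk.1]
    refine Fin.cases e3 (fun i => ?_) i
    rw [e1 i]
    exact e2 _ (Submodule.subset_span ⟨i, rfl⟩)

theorem exists_sq (ht : h.TV) {r : G} (rz : r * z = z * r) (hr : r ∉ h.K) :
    ∃ x, x * z = z * x ∧ x ∉ h.K ∧ x * x ∈ O2C z := by
  have := d.finite
  let b := Module.finBasis (ZMod 2) U₁
  have ie : LinearIndependent (ZMod 2) fun i => (b i : V) :=
    b.linearIndependent.map' U₁.subtype (Submodule.ker_subtype _)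
  have sp : ∀ W : Submodule (ZMod 2) V, (∀ i, (b i : V) ∈ W) → U₁ ≤ W := fun W hW u hu =>
    (Submodule.span_le.2 (by rintro _ ⟨i, rfl⟩; exact hW i) :
      Submodule.span (ZMod 2) (Set.range b) ≤ W.comap U₁.subtype) (b.mem_span ⟨u, hu⟩)
  choose f f2 f0 f1 using fun j => h.sep (Submodule.span_le.2 (by rintro _ ⟨i, -, rfl⟩; exact (b i).2))
    (b j).2 (linearIndependent_iff_notMem_span.1 ie j)
  have f3 : ∀ i j, i ≠ j → d.B (b i) (f j) = 0 := fun i j e =>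
    f0 j _ (Submodule.subset_span ⟨i, ⟨trivial, e⟩, rfl⟩)
  have ri := cinv rz
  obtain ⟨k, hk, ek⟩ := h.trans ht _ (fun i => (b i : V)) (fun i => d.ρ r⁻¹ (f i)) (fun i => (b i).2)
    (fun i => (h.sw ri fun e => hr (inv_mem_iff.1 e)).2 _ (f2 i)) ie
    (linearIndependent_iff_notMem_span.2 fun j c => by
      have : Submodule.span (ZMod 2) ((fun i => d.ρ r⁻¹ (f i)) '' (Set.univ \ {j})) ≤
          LinearMap.ker (d.B (d.ρ r⁻¹ (b j))) := Submodule.span_le.2 (by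
        rintro _ ⟨i, hi, rfl⟩
        exact (d.B_ρ ri _ _).trans (f3 j i (Ne.symm hi.2)))
      have := (d.B_ρ ri _ _).symm.trans (this c)
      rw [f1] at this
      exact one_ne_zero this)
  have xz := cmul rz hk.1
  have hx : r * k ∉ h.K := fun e => hr ((h.K.mul_mem_cancel_right hk).1 e)
  have e1 : ∀ i, d.ρ (r * k) (b i) = f i := fun i => by rw [d.ρ_mul rz hk.1, ek, d.ρ_ρ_inv rz]
  generalize r * k = x at xz hx e1
  have xi := (h.sw (cinv xz) fun e => hx (inv_mem_iff.1 e)).2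
  have e2 : ∀ u ∈ U₁, d.ρ x (d.ρ x u) = u := fun u hu => by
    refine sp (LinearMap.eqLocus (d.ρ x ∘ₗ d.ρ x) LinearMap.id) (fun j => ?_) hu
    change d.ρ x (d.ρ x (b j)) = b j
    rw [e1, ← H69.XV.add_eq_zero]
    refine h.eq0 (add_mem ((h.sw xz hx).2 _ (f2 j)) (b j).2) fun w hw => ?_
    rw [← d.ρ_ρ_inv xz w, d.B_symm]
    refine sp (LinearMap.ker (d.B (d.ρ x (f j) + b j) ∘ₗ d.ρ x)) (fun i => ?_) (xi w hw)
    change d.B _ (d.ρ x (b i)) = 0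
    rw [B_addl, d.B_ρ xz, e1, d.B_symm]
    by_cases e : i = j
    · rw [e, add_self]
    · rw [f3 i j e, f3 j i (Ne.symm e), add_zero]
  refine ⟨x, xz, hx, d.mem_of_ρ (cmul xz xz) fun v => ?_⟩
  obtain ⟨a, ha, c, hc, rfl⟩ := dec0 h.p1 h.p2 h.hi v
  rw [d.ρ_mul xz xz, map_add, map_add, e2 a ha, ← d.ρ_ρ_inv xz c, e2 _ (xi c hc)]

theorem sp3 {a b c v : V} (ha : a ∈ U₁) (hb : b ∈ U₁) (hc : c ∈ U₁) (a0 : a ≠ 0) (b0 : b ≠ 0)
    (ba : b ≠ a) (c0 : ¬ (c = 0 ∨ c = a ∨ c = b ∨ c = a + b)) (e1 : d.B a v = 0) (e2 : d.B b v = 0)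
    (e3 : d.B c v = 0) : v ∈ U₁ := by
  have l : Submodule.span (ZMod 2) {a, b, c} ≤ U₁ := Submodule.span_le.2 (by
    rintro _ (rfl | rfl | rfl) <;> assumption)
  refine l ((lag_of_three d h.c64 (fun x hx => d.mem_perp.2 fun y hy => h.B1 (l hy) (l hx))
    (Submodule.subset_span (by simp)) (Submodule.subset_span (by simp))
    (Submodule.subset_span (by simp)) a0 b0 ba c0).le (d.mem_perp.2 fun w hw => ?_))
  exact (Submodule.span_le.2 (by rintro _ (rfl | rfl | rfl) <;> assumption) :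
    Submodule.span (ZMod 2) {a, b, c} ≤ LinearMap.ker (d.B.flip v)) hw

variable {x : G} (xz : x * z = z * x) (hx : x ∉ h.K) (x2 : x * x ∈ O2C z)
include xz hx x2

omit x2 in
theorem fix_com {v : V} (e : d.ρ x v = v) : v ∈ d.comS x := by
  obtain ⟨a, ha, b, hb, rfl⟩ := dec0 h.p1 h.p2 h.hi v
  refine d.mem_comS.2 ⟨a, ?_⟩
  rw [map_add] at e
  have e1 : d.ρ x b + a = d.ρ x a + b := by linear_combination (norm := ch2) e
  have := h.hi _ (add_mem ((h.sw xz hx).2 b hb) ha) (e1 ▸ add_mem ((h.sw xz hx).1 a ha) hb)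
  rw [e1, H69.XV.add_eq_zero] at this
  rw [this, add_comm]

omit x2 in
theorem nd {a : V} (ha : a ∈ U₁) (a0 : a ≠ 0) : ∃ b ∈ U₁, d.B a (d.ρ x b) = 1 := by
  obtain ⟨w, hw, -, e⟩ := h.sep bot_le ha (fun c => a0 ((Submodule.mem_bot _).1 c))
  exact ⟨_, (h.sw (cinv xz) fun e => hx (inv_mem_iff.1 e)).2 w hw, by rwa [d.ρ_ρ_inv xz]⟩

theorem odd3 {a b : V} (ha : a ∈ U₁) (hb : b ∈ U₁) (ab : d.B a (d.ρ x b) = 1)
    (aa : d.B a (d.ρ x a) = 0) : ∃ m ∈ U₁, d.B a (d.ρ x m) = 0 ∧ d.B m (d.ρ x m) = 1 := by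
  obtain ⟨m, hm, m0, e1, e2⟩ := ex_ker2 (d := d) h.c1 (d.ρ x a) (d.ρ x b)
  rw [d.B_ρ_sq xz x2] at e1 e2
  refine ⟨m, hm, e1, z2_ne fun e => ρ_ne_zero xz m0 (h.hi _ (h.sp3 hm ha hb m0 ?_ ?_ ?_ e e1 e2)
    ((h.sw xz hx).1 m hm))⟩
  · rintro rfl
    simp at ab
  · rintro rfl
    rw [← d.B_ρ_sq xz x2, d.B_symm, ab] at e2
    exact one_ne_zero e2
  · rintro (rfl | rfl | rfl | rfl)
    · simp at ab
    · exact one_ne_zero (ab.symm.trans e1)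
    · exact one_ne_zero (ab.symm.trans aa)
    · rw [map_add, B_addr, e1, aa] at ab
      exact absurd ab (by decide)

omit [Finite G] h hx in
theorem phi_add (a b : V) : d.B (a + b) (d.ρ x (a + b)) = d.B a (d.ρ x a) + d.B b (d.ρ x b) := by
  rw [map_add (d.ρ x), B_addl, B_addr, B_addr, ← d.B_ρ_sq xz x2 b a, d.B_symm (d.ρ x b) a, add_assoc,
    add_add_cancel]

end L2

omit [Finite G] in
theorem inv_com {x y : G} (xz : x * z = z * x) (x2 : x * x = 1 ∨ x * x = z) (hy : y ∈ O2C z)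
    (e : d.p y ∈ d.comS x) : x * y * x⁻¹ = y⁻¹ := by
  obtain ⟨v, e⟩ := d.mem_comS.1 e
  obtain ⟨g, hg, rfl⟩ := d.p_surj v
  have c : g⁻¹ * (x * x)⁻¹ = (x * x)⁻¹ * g⁻¹ := by
    rcases x2 with e | e <;> rw [e]
    · simp
    · rw [d.xs.inv_z, d.xs.cen _ (inv_mem hg)]
  have a : x * (g * x * g⁻¹ * x⁻¹) * x⁻¹ = (g * x * g⁻¹ * x⁻¹)⁻¹ :=
    calc _ = x * g * x * (g⁻¹ * (x * x)⁻¹) := by group
      _ = _ := by rw [c]; group
  rw [← d.p_comm' xz hg] at e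
  rcases (d.p_eq_iff hy (d.comm_mem xz hg)).1 e.symm with rfl | rfl
  · exact a
  · rw [← conj_mul, a, mul_inv_eq_iff_eq_mul.2 xz, mul_inv_rev _ z, d.xs.inv_z,
      d.xs.cen _ (inv_mem (d.comm_mem xz hg))]

namespace L2

variable (h : L2 d U₁ U₂) {x : G} (xz : x * z = z * x) (hx : x ∉ h.K) (x2 : x * x = 1 ∨ x * x = z)
include h xz hx x2

omit [Finite G] h xz hx in
theorem sqQ (d : VD (O2C z) z V) : x * x ∈ O2C z := x2.elim (· ▸ one_mem _) (·.symm ▸ d.xs.mem)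

omit [Finite G] h hx x2 in
theorem q_phi (u : V) : d.q (d.ρ x u + u) = d.B u (d.ρ x u) := by
  rw [q_com xz, B_addr, d.B_self, add_zero]

theorem conj_z : ∃ e ∈ O2C z, e * x * e⁻¹ = x * z := by
  obtain ⟨t, ht, t0⟩ := h.ex0
  have : ∃ m, d.B m (d.ρ x m) = 1 := by
    rcases z2 (d.B t (d.ρ x t)) with e | e
    · obtain ⟨b, hb, e1⟩ := h.nd xz hx ht t0
      obtain ⟨m, -, -, e2⟩ := h.odd3 xz hx (sqQ x2 d) ht hb e1 e
      exact ⟨m, e2⟩
    · exact ⟨t, e⟩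
  obtain ⟨m, e⟩ := this
  obtain ⟨y, hy, e1⟩ := d.p_surj (d.ρ x m + m)
  have e2 := inv_com xz x2 hy (e1 ▸ d.com_mem x m)
  have e3 := (d.xs.sq hy).resolve_left fun c => by
    rw [← d.q_eq_zero hy, e1, q_phi xz, e] at c
    exact one_ne_zero c
  refine ⟨y, hy, ?_⟩
  calc _ = y * (x * y * x⁻¹)⁻¹ * x := by group
    _ = _ := by rw [e2, inv_inv, e3, xz]

theorem lemC {c : G} (hc : c ∈ h.K) (cx : c * x = x * c)
    (hb : ∀ b ∈ O2C z, b * x = x * b → b * c = c * b) : c ∈ O2C z := by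
  have q2 := sqQ x2 d
  have cm : ∀ v, d.ρ c (d.ρ x v) = d.ρ x (d.ρ c v) := fun v => by
    rw [← d.ρ_mul hc.1 xz, cx, d.ρ_mul xz hc.1]
  have a1 : ∀ u ∈ U₁, d.B u (d.ρ x u) = 0 → d.ρ c u = u := fun u hu e => by
    obtain ⟨y, hy, e1⟩ := d.p_surj (d.ρ x u + u)
    have e2 := inv_com xz x2 hy (e1 ▸ d.com_mem x u)
    rw [inv_of_sq ((d.q_eq_zero hy).1 (by rw [e1, q_phi xz, e]))] at e2
    have e3 := (d.ρ_fix hc.1 hy).2 (.inl (conj_of_comm (hb y hy (comm_of_conj e2))))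
    rw [e1, map_add] at e3
    have e4 : d.ρ c u + u = d.ρ c (d.ρ x u) + d.ρ x u := by linear_combination (norm := ch2) e3
    have m := (h.sw xz hx).1 u hu
    exact H69.XV.add_eq_zero.1 (h.hi _ (add_mem (hc.2 u hu) hu) (e4 ▸ add_mem (h.K2 hc _ m) m))
  have a2 : ∀ u ∈ U₁, d.ρ c u = u := fun u hu => by
    refine H69.XV.add_eq_zero.1 (by_contra fun n0 => ?_)
    have hn := add_mem (hc.2 u hu) hu
    have n1 : ∀ a ∈ U₁, d.B a (d.ρ x a) = 0 → d.B (d.ρ c u + u) (d.ρ x a) = 0 := fun a ha e => by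
      rw [B_com hc.1, ρ_inv_fix hc.1 (by rw [cm, a1 a ha e]), add_self, map_zero]
    have n2 := phi_add (d := d) xz q2 (d.ρ c u) u
    rw [← cm, d.B_ρ hc.1, add_self] at n2
    obtain ⟨b, hb, e1⟩ := h.nd xz hx hn n0
    obtain ⟨m, hm, e2, e3⟩ := h.odd3 xz hx q2 hn hb e1 n2
    have e4 := z2_ne fun e => one_ne_zero (e1.symm.trans (n1 b hb e))
    have e5 := n1 _ (add_mem hb hm) (by rw [phi_add xz q2, e3, e4]; rfl)
    rw [map_add (d.ρ x), B_addr, e1, e2] at e5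
    exact absurd e5 (by decide)
  refine d.mem_of_ρ hc.1 fun v => ?_
  obtain ⟨a, ha, b, hb, rfl⟩ := dec0 h.p1 h.p2 h.hi v
  rw [map_add, a2 a ha, ← d.ρ_sq xz q2 b, cm, a2 _ ((h.sw xz hx).2 b hb)]

omit xz hx x2

theorem inner (h128 : Nat.card (O2C z) = 128) {s : G} (hs : Cj z s) (sz : s * z = z * s) :
    s ∈ h.K := by
  by_contra hn
  have hK := h.i2 h128 sz hn
  have ss := hs.sq d.xs.zz
  refine hK.out_false h128.ge hs sz hn (fun k hk hk' k1 => ?_) fun c cz cs hc => ?_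
  · have lx := d.lx.O2C_conj hs
    obtain ⟨e, -, e1⟩ := d.exists_comm' sz hk (h.fix_com sz hn
      ((d.ρ_fix sz hk).2 (.inl (conj_of_comm (lx.cen k hk'))))) (h.conj_z sz hn (.inl ss))
    obtain ⟨y, -, e2⟩ := lx.exists_conj_eq_mul_z hk' k1 fun c => hn (hK.Q (c ▸ hk))
    exact (e1 ▸ hs.conj e).trans (Cj.symm ⟨y, e2⟩)
  · by_cases e : c ∈ h.K
    · exact .inl (h.lemC sz hn (.inl ss) e cs hc)
    · exact .inr (h.lemC sz hn (.inl ss) ((hK.mul_iff cz sz).2 (iff_of_false e hn))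
        (by rw [mul_assoc, ← mul_assoc s, ← cs, mul_assoc])
        fun b hb e => by rw [← mul_assoc, hc b hb e, mul_assoc, e, mul_assoc])

theorem false (hres : pResidual 2 G = ⊤) (h128 : Nat.card (O2C z) = 128) (ht : h.TV) {r : G}
    (rz : r * z = z * r) (hr : r ∉ h.K) : False := by
  obtain ⟨r, rz, hr, r2⟩ := h.exists_sq ht rz hr
  have hK := h.i2 h128 rz hr
  obtain ⟨v, e⟩ := d.mem_comS.1 (h.fix_com rz hr ((d.ρ_fix rz r2).2 (.inl (by group))))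
  obtain ⟨g, hg, rfl⟩ := d.p_surj v
  have gz := d.xs.cen g hg
  have m : r⁻¹ * g * r⁻¹⁻¹ ∈ O2C z :=
    (d.lx.nz (mem_centralizer_singleton_iff.2 (cinv rz)) g).1 hg
  have x2 : r * g * (r * g) = 1 ∨ r * g * (r * g) = z := by
    rw [show r * g * (r * g) = r * r * (r⁻¹ * g * r⁻¹⁻¹ * g) by group]
    refine (d.p_eq_zero (mul_mem r2 (mul_mem m hg))).1 ?_
    rw [d.p_mul r2 (mul_mem m hg), d.p_mul m hg, ← d.ρ_p (cinv rz) hg, ρ_inv_sq rz r2, e, add_self]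
  have xz := cmul rz gz
  have hx : r * g ∉ h.K := fun e => hr ((h.K.mul_mem_cancel_right (hK.Q hg)).1 e)
  obtain ⟨s, s1, s2, s3, s4, s5⟩ := hK.exists_outer hres xz hx
    (x2.imp_right fun e => ⟨e, fun s hs sz => h.inner h128 hs sz⟩)
  exact s3 (h.lemC xz hx x2 (h.inner h128 s1 s2) s4 s5)

end L2

theorem n5 (hres : pResidual 2 G = ⊤) (h128 : Nat.card (O2C z) = 128) (d : VD (O2C z) z V)
    {P : V → Prop} {U X : V → V → Prop} (S : Sys d P U X) {U₁ U₂ : Submodule (ZMod 2) V}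
    (hP : ∀ s, P s ↔ s ≠ 0 ∧ (s ∈ U₁ ∨ s ∈ U₂)) (hi : U₁ ⊓ U₂ = ⊥)
    (c₁ : Nat.card U₁ = 8) (c₂ : Nat.card U₂ = 8) {t : V} (ht : t ∈ U₁) (t0 : t ≠ 0)
    (hX : ∀ w ∈ U₂, d.B w t = 0 → X t w) : False := by
  have := d.finite
  have c64 := card_V d h128
  have hq : ∀ s, s ∈ U₁ ∨ s ∈ U₂ → d.q s = 0 := fun s hs => by
    by_cases e : s = 0
    exacts [e ▸ d.q_zero, S.q0 ((hP s).2 ⟨e, hs⟩)]
  have pp : ∀ W : Submodule (ZMod 2) V, Nat.card W = 8 → (∀ s ∈ W, d.q s = 0) → d.perp W = W :=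
    fun W c e => by
      have h1 := d.card_perp W
      refine (SetLike.coe_injective (Set.eq_of_subset_of_ncard_le
        (fun x hx => d.mem_perp.2 fun y hy => B_of_q e hy hx) ?_)).symm
      change Nat.card (d.perp W) ≤ Nat.card W
      rw [c, c64] at h1
      omega
  have p1 := pp U₁ c₁ fun s hs => hq s (.inl hs)
  have p2 := pp U₂ c₂ fun s hs => hq s (.inr hs)
  have i0 : ∀ u ∈ U₁, u ∈ U₂ → u = 0 := fun u h1 h2 => (Submodule.mem_bot _).1 (hi.le ⟨h1, h2⟩)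
  obtain ⟨w, hw, w0, -⟩ := ex_ker2 (d := d) c₂ 0 0
  have un : ∀ c, c * z = z * c → ∀ W, (∀ s ∈ W, s ∈ U₁ ∨ s ∈ U₂) → Mp d c W U₁ ∨ Mp d c W U₂ :=
    fun c hc W hW => by
      have a : ∀ s ∈ W, d.ρ c s ∈ U₁ ∨ d.ρ c s ∈ U₂ := fun s hs => by
        by_cases e : s = 0
        · exact .inl (by rw [e, map_zero]; exact zero_mem _)
        · exact ((hP _).1 (S.Pρ hc ((hP s).2 ⟨e, hW s hs⟩))).2
      by_contra hn
      simp only [Mp, not_or, not_forall] at hn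
      obtain ⟨⟨x, hx, x1⟩, y, hy, y2⟩ := hn
      rcases a _ (add_mem hx hy) with e | e <;> rw [map_add] at e
      · exact x1 ((U₁.add_mem_iff_left ((a y hy).resolve_right y2)).1 e)
      · exact y2 ((U₂.add_mem_iff_right ((a x hx).resolve_left x1)).1 e)
  have no : ∀ c, c * z = z * c → ∀ W, Mp d c U₁ W → Mp d c U₂ W → ∀ v, v ∈ W := fun c hc W a b v => by
    obtain ⟨x, hx, y, hy, e⟩ := dec0 p1 p2 i0 (d.ρ c⁻¹ v)
    rw [← d.ρ_ρ_inv hc v, ← e, map_add]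
    exact add_mem (a x hx) (b y hy)
  have h : L2 d U₁ U₂ := ⟨c64, c₁, p1, p2, i0, fun c hc => by
    rcases un c hc U₁ fun _ => .inl with a | a <;> rcases un c hc U₂ fun _ => .inr with b | b
    exacts [absurd (i0 w (no c hc _ a b w) hw) w0, .inl ⟨a, b⟩, .inr ⟨a, b⟩,
      absurd (i0 t ht (no c hc _ a b t)) t0]⟩
  have Pt := (hP t).2 ⟨t0, .inl ht⟩
  obtain ⟨r, rz, er⟩ := S.trans Pt ((hP w).2 ⟨w0, .inr hw⟩)
  refine h.false hres h128 (fun s hs s0 w hw e => ?_) rz fun e => w0 (i0 w (er ▸ e.2 t ht) hw)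
  obtain ⟨c, cz, rfl⟩ := S.trans Pt ((hP s).2 ⟨s0, .inl hs⟩)
  have hc : c ∈ h.K := by_contra fun n => s0 (i0 _ hs ((h.sw cz n).1 t ht))
  have := S.Xρ cz (hX _ (h.K2 (inv_mem hc) w hw) (by rwa [d.B_symm, ← d.B_ρ_left cz]))
  rw [d.ρ_ρ_inv cz] at this
  obtain ⟨a, az, ha⟩ := S.sg this
  have e1 : ∀ u ∈ U₁, d.ρ a u = u + d.B u w • d.ρ c t := fun u hu => by
    rw [ha u, h.B1 hu hs]; simp
  exact ⟨a, ⟨az, fun u hu => e1 u hu ▸ add_mem hu (U₁.smul_mem _ hs)⟩, e1⟩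

end Cfsg.Agent.H18.W3
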