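import Cfsg.Agent.H18.X9Code
import Mathlib.Data.Fin.VecNotation

/-!
# Project X9: finite checks
-/

set_option autoImplicit false
set_option synthInstance.maxSize 100000
set_option synthInstance.maxHeartbeats 400000

namespace Cfsg.Agent.H18.X9

theorem wf0 : m0.Wf := by constructor <;> decide +kernel
theorem wf1 : m1.Wf := by constructor <;> decide +kernel
theorem wf2 : m2.Wf := by constructor <;> decide +kernel
theorem wf3 : m3.Wf := by constructor <;> decide +kernel
theorem wf4 : m4.Wf := by constructor <;> decide +kernel
theorem wf5 : m5.Wf := by constructor <;> decide +kernel
theorem wf6 : m6.Wf := by constructor <;> decide +kernel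
theorem wf7 : m7.Wf := by constructor <;> decide +kernel
theorem wf8 : m8.Wf := by constructor <;> decide +kernel
theorem wf9 : m9.Wf := by constructor <;> decide +kernel

theorem odd4 : m4.OddD := by unfold MD.OddD; decide +kernel
theorem odd6 : m6.OddD := by unfold MD.OddD; decide +kernel

theorem geo0 : GeoD m0 0 9531904001994654465 290499906672525570 9241439281858478595
    9241439281858478595 9531886410756260610 ![1, 4, 32, 8] ![2, 128, 16, 64]
    [148627859211124740, 290499906672525570, 1153489402381484040, 9241439281858478595,
      9241989586362827265, 9245925288754577925, 9385545947637154305, 9531904001994654465,
      10394343193199264265] := by constructor <;> decide +kernel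

theorem geo5 : GeoD m5 1 9748935279368274689 507742290312364290 9241650388124697091
    4647978768678965811 5225545780138277904 ![1, 6, 235, 11] ![2, 98, 112, 64]
    [507742290312364290, 9241650388124697091, 9748935279368274689] := by
  constructor <;> decide +kernel

theorem bad1 : BadD m1 9532753391923757825 2615048425141700865 9532753391923757825
    12990650924578917130 10394360786467439115 := by constructor <;> decide +kernel

theorem bad2 : BadD m2 9748085889439171329 9667056246158722305 9748085889439171329
    9545397210175276806 9245942882022752775 := by constructor <;> decide +kernel

theorem bad3 : BadD m3 9531904001994654465 11918811701421805057 9603961630392320769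
    1619052931389363245 1646960005450416908 := by constructor <;> decide +kernel

theorem bad8 : BadD m8 9385545947637154305 13997303168032965121 9385547055738716673
    16213354376477215563 17005996724282985026 := by constructor <;> decide +kernel

end Cfsg.Agent.H18.X9
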