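import Cfsg.Agent.H18.X9Dat

/-!
# Project X9: the certificates are correct
-/

set_option autoImplicit false
set_option maxRecDepth 100000

namespace Cfsg.Agent.H18.X9

theorem gi_ok : giB = true := by decide +kernel
theorem jm_ok : jm.ok [] = true := by decide +kernel
theorem jp0_ok : jp0.ok [0, 1, 2, 3, 4, 5, 6, 7] = true := by decide +kernel
theorem jp1_ok : jp1.ok [0, 1, 2, 3, 4, 5, 6, 7] = true := by decide +kernel
theorem jp2_ok : jp2.ok [0, 1, 2, 3, 4, 5, 6, 7] = true := by decide +kernel
theorem jp3_ok : jp3.ok [0, 1, 2, 3, 4, 5, 6, 7] = true := by decide +kernel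
theorem jp4_ok : jp4.ok [0, 1, 2, 3, 4, 5, 6, 7] = true := by decide +kernel
theorem ph_ok : phB [jp0, jp1, jp2, jp3] jp4 PH = true := by decide +kernel
theorem exJ0 : exJ [4] 0 ex0 = true := by decide +kernel
theorem exW0 : exW 0 ex0 = true := by decide +kernel
theorem exJ1 : exJ [] 1 ex1 = true := by decide +kernel
theorem exW1 : exW 1 ex1 = true := by decide +kernel
theorem exJ2 : exJ [] 2 ex2 = true := by decide +kernel
theorem exW2 : exW 2 ex2 = true := by decide +kernel
theorem exJ3 : exJ [] 3 ex3 = true := by decide +kernel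
theorem exW3 : exW 3 ex3 = true := by decide +kernel
theorem exJ4 : exJ [] 4 ex4 = true := by decide +kernel
theorem exW4 : exW 4 ex4 = true := by decide +kernel
theorem exJ5 : exJ [8] 5 ex5 = true := by decide +kernel
theorem exW5 : exW 5 ex5 = true := by decide +kernel
theorem exJ6 : exJ [] 6 ex6 = true := by decide +kernel
theorem exW6 : exW 6 ex6 = true := by decide +kernel
theorem exJ7 : exJ [9] 7 ex7 = true := by decide +kernel
theorem exW7 : exW 7 ex7 = true := by decide +kernel
theorem exJ8 : exJ [] 8 ex8 = true := by decide +kernel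
theorem exW8 : exW 8 ex8 = true := by decide +kernel
theorem exJ9 : exJ [] 9 ex9 = true := by decide +kernel
theorem exW9 : exW 9 ex9 = true := by decide +kernel

end Cfsg.Agent.H18.X9
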