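import Cfsg.Agent.H18.X9Dat

/-!
# Project X9: the certificates are correct
-/

set_option autoImplicit false
set_option maxRecDepth 100000

namespace Cfsg.Agent.H18.X9

theorem exS0 : exS m0 ex0.t m0.T = true := by decide +kernel
theorem exS1 : exS m1 ex1.t m1.T = true := by decide +kernel
theorem exS3 : exS m3 ex3.t m3.T = true := by decide +kernel
theorem exS5 : exS m5 ex5.t m5.T = true := by decide +kernel
theorem exS7 : exS m7 ex7.t m7.T = true := by decide +kernel
theorem exS8 : exS m8 ex8.t m8.T = true := by decide +kernel

end Cfsg.Agent.H18.X9
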