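import Cfsg.Agent.H18.X9Dat

/-!
# Project X9: the certificates are correct
-/

set_option autoImplicit false
set_option maxRecDepth 100000

namespace Cfsg.Agent.H18.X9

theorem exS4 : exS m4 ex4.t m4.T = true := by decide +kernel
theorem exS6 : exS m6 ex6.t m6.T = true := by decide +kernel

end Cfsg.Agent.H18.X9
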