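import Cfsg.Agent.H18.X9Dat

/-!
# Project X9: the certificates are correct
-/

set_option autoImplicit false
set_option maxRecDepth 100000

namespace Cfsg.Agent.H18.X9

theorem exS9c : exS m9 ex9.t ((m9.T.drop 45).drop 45) = true := by decide +kernel

end Cfsg.Agent.H18.X9
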